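import Mathlib
import Cfsg.Agent.Lib.Helper18.CTDefs

set_option autoImplicit false

namespace Cfsg.Agent.Lib.Helper18.CT

variable {G : Type*} [Group G] {F : Type*} [Field F] {V : Type*} [AddCommGroup V] [Module F V]

private theorem la2_T_pow (X Xi : Module.End F V) (i : ℕ) (ψ : Module.End F V) :
    (((LinearMap.mulLeft F X : Module.End F (Module.End F V)) * LinearMap.mulRight F Xi) ^ i) ψ
      = X ^ i * ψ * Xi ^ i := by
  induction i generalizing ψ with
  | zero => simp
  | succ i ih =>
    rw [pow_succ', Module.End.mul_apply, ih]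
    simp only [Module.End.mul_apply, LinearMap.mulLeft_apply, LinearMap.mulRight_apply]
    rw [pow_succ', pow_succ]
    simp only [mul_assoc]

private theorem la2_b_pow (Xi : Module.End F V) (j : ℕ) (ψ : Module.End F V) :
    (((LinearMap.mulRight F Xi : Module.End F (Module.End F V)) - 1) ^ j) ψ
      = ψ * (Xi - 1) ^ j := by
  induction j generalizing ψ with
  | zero => simp
  | succ j ih =>
    rw [pow_succ', Module.End.mul_apply, ih]
    simp only [LinearMap.sub_apply, LinearMap.mulRight_apply, Module.End.one_apply]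
    rw [pow_succ]
    noncomm_ring

private theorem la2_a_pow (X Xi : Module.End F V) (m : ℕ) (ψ : Module.End F V) :
    ((((LinearMap.mulLeft F X : Module.End F (Module.End F V)) - 1) * LinearMap.mulRight F Xi) ^ m) ψ
      = (X - 1) ^ m * ψ * Xi ^ m := by
  induction m generalizing ψ with
  | zero => simp
  | succ m ih =>
    rw [pow_succ', Module.End.mul_apply, ih]
    simp only [Module.End.mul_apply, LinearMap.sub_apply, LinearMap.mulLeft_apply,
      LinearMap.mulRight_apply, Module.End.one_apply]
    rw [pow_succ', pow_succ]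
    noncomm_ring

private theorem la2_Xi_pow (X Xi : Module.End F V) (h1 : X * Xi = 1) (h2 : Xi * X = 1) (k : ℕ)
    (hy : (X - 1) ^ k = 0) : (Xi - 1) ^ k = 0 := by
  have hc : Commute (-Xi) (X - 1) := by
    have : Commute Xi (X - 1) := by
      show Xi * (X - 1) = (X - 1) * Xi
      rw [mul_sub, sub_mul, h1, h2, mul_one, one_mul]
    exact this.neg_left
  have he : Xi - 1 = -Xi * (X - 1) := by
    rw [mul_sub, neg_mul, neg_mul, h2, mul_one]; abel
  rw [he, hc.mul_pow, hy, mul_zero]

-- piece LA2
theorem trX_range (p : ℕ) [Fact p.Prime] [CharP F p] (n : ℕ)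
    (hgeom : ∀ T : Module.End F (Module.End F V),
      ∑ i ∈ Finset.range (p ^ n), T ^ i = (T - 1) ^ (p ^ n - 1))
    (X Xi : Module.End F V) (h1 : X * Xi = 1) (h2 : Xi * X = 1) (k : ℕ) (hk : k ≤ p ^ n)
    (hy : (X - 1) ^ k = 0) (φ : Module.End F V) :
    LinearMap.range (trX X Xi (p ^ n) φ) ≤ LinearMap.range ((X - 1) ^ (p ^ n - k)) := by
  classical
  have hqpos : 0 < p ^ n := pos_of_ne_zero (pow_ne_zero _ (Fact.out : p.Prime).ne_zero)
  generalize p ^ n = q at hgeom hk hqpos ⊢
  set L : Module.End F (Module.End F V) := LinearMap.mulLeft F X with hL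
  set R : Module.End F (Module.End F V) := LinearMap.mulRight F Xi with hR
  set a : Module.End F (Module.End F V) := (L - 1) * R with ha
  set b : Module.End F (Module.End F V) := R - 1 with hb
  have hLR : Commute L R := LinearMap.commute_mulLeft_right X Xi
  have hab : Commute a b := by
    have h1' : Commute (L - 1) R := hLR.sub_left (Commute.one_left R)
    have h2' : Commute (L - 1) (R - 1) := h1'.sub_right (Commute.one_right _)
    have h3' : Commute R (R - 1) := (Commute.refl R).sub_right (Commute.one_right _)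
    exact h2'.mul_left h3'
  have hT : L * R - 1 = a + b := by
    rw [ha, hb, sub_mul, one_mul]; abel
  have hbk : b ^ k = 0 := by
    ext ψ : 1
    rw [hb, hR, la2_b_pow, la2_Xi_pow X Xi h1 h2 k hy, mul_zero]
    rfl
  have htr : trX X Xi q φ = ((a + b) ^ (q - 1)) φ := by
    rw [← hT, ← hgeom, LinearMap.sum_apply]
    unfold trX
    refine Finset.sum_congr rfl (fun i _ => ?_)
    rw [hL, hR, la2_T_pow]
  have hexp : (a + b) ^ (q - 1)
      = ∑ m ∈ Finset.range q, a ^ m * b ^ (q - 1 - m) * ((q - 1).choose m : Module.End F (Module.End F V)) := by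
    rw [hab.add_pow]
    have : q - 1 + 1 = q := Nat.sub_add_cancel hqpos
    rw [this]
  rintro w ⟨v, rfl⟩
  rw [htr, hexp, LinearMap.sum_apply, LinearMap.sum_apply]
  refine Submodule.sum_mem _ (fun m hm => ?_)
  by_cases hkm : k ≤ q - 1 - m
  · rw [pow_eq_zero_of_le hkm hbk, mul_zero, zero_mul]
    simp
  · have hmq : q - k ≤ m := by
      have := Finset.mem_range.mp hm
      omega
    rw [mul_assoc, Module.End.mul_apply, ha, hL, hR, la2_a_pow]
    obtain ⟨d, rfl⟩ := Nat.exists_eq_add_of_le hmq
    rw [pow_add, mul_assoc, mul_assoc, Module.End.mul_apply]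
    exact LinearMap.mem_range_self _ _

end Cfsg.Agent.Lib.Helper18.CT
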