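import Mathlib
import Cfsg.Agent.Lib.Helper18.TLDefs

/-! S3797 piece TL-AVG (helper81): the averaging argument. -/

set_option autoImplicit false

namespace Cfsg.Agent.Lib.Helper18.TL

open Subgroup
open scoped commutatorElement

universe u

variable {G : Type u} [Group G]

private theorem avg_normal {Z P : Subgroup G} (hPZ : P ≤ centralizer (Z : Set G)) :
    (Z.subgroupOf P).Normal := by
  constructor
  intro z hz p
  rw [Subgroup.mem_subgroupOf] at hz ⊢
  have hp := hPZ p.2
  rw [mem_centralizer_iff] at hp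
  have h1 := hp _ hz
  have heq : ((p * z * p⁻¹ : P) : G) = (z : G) := by
    rw [Subgroup.coe_mul, Subgroup.coe_mul, Subgroup.coe_inv, ← h1]
    group
  rw [heq]
  exact hz

/-- conjugation by an element of `W'` as an endomorphism of `P` -/
private def avgConj {P W' : Subgroup G} (hWP : W' ≤ normalizer (P : Set G)) (w : W') :
    P →* P where
  toFun x := ⟨w * x * (w : G)⁻¹, ((mem_normalizer_iff.1 (hWP w.2)) x).1 x.2⟩
  map_one' := by
    apply Subtype.ext
    simp
  map_mul' x y := by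
    apply Subtype.ext
    simp [mul_assoc]

private theorem avg_core {Z P W' : Subgroup G} [Fintype W'] [hn : (Z.subgroupOf P).Normal]
    (hcomm : ⁅P, P⁆ ≤ Z) (hsq : ∀ x ∈ P, x ^ 2 ∈ Z) (hWP : W' ≤ normalizer (P : Set G))
    (hodd : Odd (Fintype.card W')) :
    ∀ x ∈ ⁅P, W'⁆, x ∈ centralizer (W' : Set G) → x ∈ Z := by
  classical
  letI : CommGroup (P ⧸ Z.subgroupOf P) :=
    { (inferInstance : Group (P ⧸ Z.subgroupOf P)) with
      mul_comm := by
        intro a b
        obtain ⟨a, rfl⟩ := QuotientGroup.mk_surjective a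
        obtain ⟨b, rfl⟩ := QuotientGroup.mk_surjective b
        rw [← QuotientGroup.mk_mul, ← QuotientGroup.mk_mul, QuotientGroup.eq,
          Subgroup.mem_subgroupOf]
        have h1 : (((a * b)⁻¹ * (b * a) : P) : G) = ⁅(b : G)⁻¹, (a : G)⁻¹⁆ := by
          simp [commutatorElement_def, mul_assoc]
        rw [h1]
        exact hcomm (Subgroup.commutator_mem_commutator (P.inv_mem b.2) (P.inv_mem a.2)) }
  let ν : P →* P ⧸ Z.subgroupOf P :=
    { toFun := fun x => ∏ w : W', (QuotientGroup.mk (avgConj hWP w x) : P ⧸ Z.subgroupOf P)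
      map_one' := by simp
      map_mul' := by
        intro x y
        simp only [map_mul, QuotientGroup.mk_mul]
        exact Finset.prod_mul_distrib }
  have hνdef : ∀ x : P, ν x =
      ∏ w : W', (QuotientGroup.mk (avgConj hWP w x) : P ⧸ Z.subgroupOf P) := fun _ => rfl
  have hinv : ∀ (w₀ : W') (p : P), ν (avgConj hWP w₀ p) = ν p := by
    intro w₀ p
    rw [hνdef, hνdef]
    have hcomp : ∀ w : W', avgConj hWP w (avgConj hWP w₀ p) = avgConj hWP (w * w₀) p := by
      intro w
      apply Subtype.ext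
      simp [avgConj, mul_assoc]
    simp_rw [hcomp]
    exact Fintype.prod_equiv (Equiv.mulRight w₀) _ _ (fun w => rfl)
  have hker : ⁅P, W'⁆ ≤ (ν.ker).map P.subtype := by
    rw [Subgroup.commutator_le]
    intro p hp w hw
    refine ⟨⟨p, hp⟩ * avgConj hWP ⟨w, hw⟩ (⟨p, hp⟩⁻¹), ?_, ?_⟩
    · rw [SetLike.mem_coe, MonoidHom.mem_ker, map_mul, hinv, ← map_mul, mul_inv_cancel,
        map_one]
    · simp [avgConj, commutatorElement_def, mul_assoc]
  intro x hx hxW
  obtain ⟨x', hx'ker, rfl⟩ := hker hx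
  have hfix : ∀ w : W', avgConj hWP w x' = x' := by
    intro w
    apply Subtype.ext
    have h0 := hxW
    rw [mem_centralizer_iff] at h0
    have h1 : (w : G) * (x' : G) = (x' : G) * (w : G) := h0 w w.2
    show (w : G) * (x' : G) * (w : G)⁻¹ = (x' : G)
    rw [h1, mul_inv_cancel_right]
  have hν : ν x' = (QuotientGroup.mk x' : P ⧸ Z.subgroupOf P) ^ Fintype.card W' := by
    rw [hνdef]
    simp_rw [hfix]
    rw [Finset.prod_const, Finset.card_univ]
  rw [SetLike.mem_coe, MonoidHom.mem_ker, hν, ← QuotientGroup.mk_pow, QuotientGroup.eq_one_iff,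
    Subgroup.mem_subgroupOf] at hx'ker
  obtain ⟨j, hj⟩ := hodd
  have hx2 := hsq x' x'.2
  have hdecomp : (x' : G) = (((x' : G) ^ 2) ^ j)⁻¹ * (x' : G) ^ (2 * j + 1) := by
    rw [← pow_mul, pow_succ, inv_mul_cancel_left]
  have hpow : (x' : G) ^ (2 * j + 1) ∈ Z := by
    rw [← hj]
    simpa using hx'ker
  show (x' : G) ∈ Z
  rw [hdecomp]
  exact Z.mul_mem (Z.inv_mem (Z.pow_mem hx2 j)) hpow

-- piece AVG
theorem avg [Finite G] {Z P W' : Subgroup G} (hZP : Z ≤ P) (hPZ : P ≤ centralizer (Z : Set G))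
    (hcomm : ⁅P, P⁆ ≤ Z) (hsq : ∀ x ∈ P, x ^ 2 ∈ Z) (hWP : W' ≤ normalizer (P : Set G))
    (hWZ : W' ≤ centralizer (Z : Set G)) (hodd : Odd (Nat.card W')) :
    ∀ x ∈ ⁅P, W'⁆, x ∈ centralizer (W' : Set G) → x ∈ Z := by
  classical
  haveI : Fintype W' := Fintype.ofFinite _
  haveI := avg_normal hPZ
  rw [Nat.card_eq_fintype_card] at hodd
  exact avg_core hcomm hsq hWP hodd

end Cfsg.Agent.Lib.Helper18.TL
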