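import Mathlib
import Cfsg.Agent.Lib.Helper18.TLDefs

/-! S3797 piece TL-DEQZ (helper81): `C_T(W) = Z`. -/

set_option autoImplicit false

namespace Cfsg.Agent.Lib.Helper18.TL

open Subgroup
open scoped commutatorElement

universe u

variable {G : Type u} [Group G]

-- piece DEQZ
theorem D_eq_Z [Finite G] {Z Y P W T : Subgroup G} (hC : Cfg Z Y) (h : Adm Z Y P W T)
    (hPP : ⁅P, P⁆ = Z) (hsq : ∀ x ∈ P, x ^ 2 ∈ Z) (hcPW : P ⊓ centralizer (W : Set G) = Z)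
    (hD : T ⊓ centralizer (W : Set G) ≤ centralizer (P : Set G)) :
    T ⊓ centralizer (W : Set G) = Z := by
  classical
  have hmemZ := hC.amb.memZ
  -- `Z ≤ C(W)`
  have hZW : Z ≤ centralizer (W : Set G) := by
    intro z hz
    rw [mem_centralizer_iff]
    intro w hw
    have := h.WZ hw
    rw [mem_centralizer_iff] at this
    exact (this z hz).symm
  have hZD : Z ≤ T ⊓ centralizer (W : Set G) := le_inf h.ZT hZW
  -- `Z` is abelian
  have hZab : ∀ a ∈ Z, ∀ b ∈ Z, a * b = b * a := by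
    intro a ha b hb
    have h1 := (hmemZ a).1 ha
    have h2 := (hmemZ b).1 hb
    have h3 := (hmemZ (a * b)).1 (Z.mul_mem ha hb)
    have ha' : a⁻¹ = a := by
      rw [inv_eq_iff_mul_eq_one, ← sq, h1]
    have hb' : b⁻¹ = b := by
      rw [inv_eq_iff_mul_eq_one, ← sq, h2]
    have hab : (a * b)⁻¹ = a * b := by
      rw [inv_eq_iff_mul_eq_one, ← sq, h3]
    calc a * b = (a * b)⁻¹ := hab.symm
      _ = b⁻¹ * a⁻¹ := mul_inv_rev a b
      _ = b * a := by rw [ha', hb']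
  -- there is `x ∈ P ∖ Z`
  obtain ⟨x, hxP, hxZ⟩ : ∃ x ∈ P, x ∉ Z := by
    by_contra hcon
    push Not at hcon
    have hbot : ⁅P, P⁆ = ⊥ := by
      rw [commutator_eq_bot_iff_le_centralizer]
      intro a ha
      rw [mem_centralizer_iff]
      intro b hb
      exact hZab b (hcon b hb) a (hcon a ha)
    obtain ⟨z, hz, -, -, hz1, -, -⟩ := hC.amb.four
    rw [← hPP, hbot, mem_bot] at hz
    exact hz1 hz
  have hx2Z : x ^ 2 ∈ Z := hsq x hxP
  have hx2 : x ^ 2 ≠ 1 := fun h1 => hxZ ((hmemZ x).2 h1)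
  apply le_antisymm _ hZD
  intro d hd
  by_contra hdZ
  have hd2 : d ^ 2 ≠ 1 := fun h1 => hdZ ((hmemZ d).2 h1)
  have hdT : d ∈ T := (Subgroup.mem_inf.mp hd).1
  obtain ⟨k, hk⟩ := h.pT ⟨d, hdT⟩
  have hk' : d ^ 2 ^ k = 1 := by
    have := congrArg Subtype.val hk
    simpa using this
  have hex : ∃ k, d ^ 2 ^ k = 1 := ⟨k, hk'⟩
  obtain ⟨m, hm⟩ : ∃ m, m = Nat.find hex := ⟨_, rfl⟩
  have hm1 : d ^ 2 ^ m = 1 := by rw [hm]; exact Nat.find_spec hex
  have hm2 : 2 ≤ m := by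
    by_contra hlt
    have hm01 : m = 0 ∨ m = 1 := by omega
    rcases hm01 with h0 | h1
    · rw [h0] at hm1
      simp at hm1
      exact hd2 (by rw [hm1]; simp)
    · rw [h1] at hm1
      simp at hm1
      exact hd2 hm1
  have hmin : d ^ 2 ^ (m - 1) ≠ 1 := by
    have hlt : m - 1 < Nat.find hex := by rw [← hm]; omega
    exact Nat.find_min hex hlt
  obtain ⟨d0, hd0⟩ : ∃ d0 : G, d0 = d ^ 2 ^ (m - 2) := ⟨_, rfl⟩
  have hd0D : d0 ∈ T ⊓ centralizer (W : Set G) := by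
    rw [hd0]
    exact Subgroup.pow_mem _ hd _
  have hd0sq : d0 ^ 2 = d ^ 2 ^ (m - 1) := by
    rw [hd0, ← pow_mul, ← pow_succ]
    congr 2
    omega
  have he1 : d0 ^ 2 ≠ 1 := by rw [hd0sq]; exact hmin
  have heZ : d0 ^ 2 ∈ Z := by
    rw [hmemZ, hd0sq, ← pow_mul, ← pow_succ]
    have : m - 1 + 1 = m := by omega
    rw [this]
    exact hm1
  -- transitivity
  obtain ⟨y, hy, hyz⟩ := hC.trans (d0 ^ 2) heZ (x ^ 2) hx2Z he1 hx2
  obtain ⟨d1, hd1⟩ : ∃ d1 : G, d1 = y * d0 * y⁻¹ := ⟨_, rfl⟩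
  have hd1sq : d1 ^ 2 = x ^ 2 := by rw [hd1, conj_pow, hyz]
  have hd1D : d1 ∈ T ⊓ centralizer (W : Set G) := by
    rw [Subgroup.mem_inf]
    refine ⟨?_, ?_⟩
    · have hyT := h.YT hy
      rw [mem_normalizer_iff] at hyT
      rw [hd1]
      exact (hyT d0).1 (Subgroup.mem_inf.mp hd0D).1
    · rw [mem_centralizer_iff]
      intro w hw
      have hyW := h.YW hy
      rw [mem_normalizer_iff''] at hyW
      have hw' : y⁻¹ * w * y ∈ W := (hyW w).1 hw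
      have hc := (Subgroup.mem_inf.mp hd0D).2
      rw [mem_centralizer_iff] at hc
      have hc' := hc _ hw'
      rw [hd1]
      calc w * (y * d0 * y⁻¹) = y * (y⁻¹ * w * y * d0) * y⁻¹ := by group
        _ = y * (d0 * (y⁻¹ * w * y)) * y⁻¹ := by rw [hc']
        _ = y * d0 * y⁻¹ * w := by group
  have hcomm : x * d1 = d1 * x := by
    have := hD hd1D
    rw [mem_centralizer_iff] at this
    exact this x hxP
  have hcomm' : x * d1⁻¹ = d1⁻¹ * x := by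
    calc x * d1⁻¹ = d1⁻¹ * (d1 * x) * d1⁻¹ := by group
      _ = d1⁻¹ * (x * d1) * d1⁻¹ := by rw [hcomm]
      _ = d1⁻¹ * x := by group
  have hxd : (x * d1⁻¹) ^ 2 = 1 := by
    calc (x * d1⁻¹) ^ 2 = x * (d1⁻¹ * x) * d1⁻¹ := by rw [sq]; group
      _ = x * (x * d1⁻¹) * d1⁻¹ := by rw [hcomm']
      _ = x ^ 2 * (d1 ^ 2)⁻¹ := by simp only [sq, mul_inv_rev, mul_assoc]
      _ = 1 := by rw [hd1sq, mul_inv_cancel]
  have hxdZ : x * d1⁻¹ ∈ Z := (hmemZ _).2 hxd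
  have hxD : x ∈ T ⊓ centralizer (W : Set G) := by
    have : x * d1⁻¹ * d1 ∈ T ⊓ centralizer (W : Set G) :=
      Subgroup.mul_mem _ (hZD hxdZ) hd1D
    rwa [inv_mul_cancel_right] at this
  have hxZ' : x ∈ P ⊓ centralizer (W : Set G) := Subgroup.mem_inf.mpr ⟨hxP, (Subgroup.mem_inf.mp hxD).2⟩
  rw [hcPW] at hxZ'
  exact hxZ hxZ'

end Cfsg.Agent.Lib.Helper18.TL
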