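import Mathlib
import Cfsg.Agent.Lib.Helper18.TLDefs

/-! S3797 piece TL-TIDX (helper81): `T` is not the union of `Z` and one coset of `Z`. -/

set_option autoImplicit false

namespace Cfsg.Agent.Lib.Helper18.TL

open Subgroup
open scoped commutatorElement

universe u

variable {G : Type u} [Group G]

-- piece TIDX
theorem T_index [Finite G] {Z Y P W T : Subgroup G} (hC : Cfg Z Y) (h : Adm Z Y P W T)
    (hWT : ⁅W, T⁆ = W) (hD : T ⊓ centralizer (W : Set G) = Z) (hsqT : ∀ a ∈ T, a ^ 2 ∈ Z) :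
    ∀ a ∈ T, ∃ b ∈ T, b ∉ Z ∧ b * a⁻¹ ∉ Z := by
  intro a haT
  by_contra hcon
  push Not at hcon
  have hmemZ := hC.amb.memZ
  -- `Z` commutes with `W` elementwise
  have hZW : Z ≤ centralizer (W : Set G) := by
    intro z hz
    rw [mem_centralizer_iff]
    intro w hw
    have := h.WZ hw
    rw [mem_centralizer_iff] at this
    exact (this z hz).symm
  -- `a ∉ Z`
  have haZ : a ∉ Z := by
    intro haZ
    have hTZ : T ≤ Z := by
      intro b hb
      by_contra hbZ
      have h1 := hcon b hb hbZ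
      have : b * a⁻¹ * a ∈ Z := Z.mul_mem h1 haZ
      rw [inv_mul_cancel_right] at this
      exact hbZ this
    have hTW : T ≤ centralizer (W : Set G) := hTZ.trans hZW
    have hbot : ⁅W, T⁆ = ⊥ := by
      rw [commutator_comm, commutator_eq_bot_iff_le_centralizer]
      exact hTW
    apply h.nontriv
    rw [hbot]
    exact bot_le
  have ha2Z : a ^ 2 ∈ Z := hsqT a haT
  have ha2 : a ^ 2 ≠ 1 := fun h1 => haZ ((hmemZ a).2 h1)
  -- `a ^ 2` is fixed by `Y`
  have hfix : ∀ y ∈ Y, y * a ^ 2 * y⁻¹ = a ^ 2 := by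
    intro y hy
    have hyT := h.YT hy
    rw [mem_normalizer_iff] at hyT
    have hc : y * a * y⁻¹ ∈ T := (hyT a).1 haT
    have hcZ : y * a * y⁻¹ ∉ Z := by
      intro hin
      have h1 := (hmemZ _).1 hin
      rw [conj_pow] at h1
      have h3 : a ^ 2 = 1 := by
        calc a ^ 2 = y⁻¹ * (y * a ^ 2 * y⁻¹) * y := by group
          _ = 1 := by rw [h1]; group
      exact ha2 h3
    have hz := hcon _ hc hcZ
    obtain ⟨z, hz', hzeq⟩ : ∃ z ∈ Z, y * a * y⁻¹ = z * a :=
      ⟨y * a * y⁻¹ * a⁻¹, hz, by group⟩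
    have hza : z * a = a * z := by
      have := h.TZ haT
      rw [mem_centralizer_iff] at this
      exact this z hz'
    have hz2 : z ^ 2 = 1 := (hmemZ z).1 hz'
    calc y * a ^ 2 * y⁻¹ = (y * a * y⁻¹) ^ 2 := conj_pow.symm
      _ = (z * a) ^ 2 := by rw [hzeq]
      _ = z ^ 2 * a ^ 2 := by
        rw [sq, sq, sq]
        calc z * a * (z * a) = z * (a * z) * a := by group
          _ = z * (z * a) * a := by rw [hza]
          _ = z * z * (a * a) := by group
      _ = a ^ 2 := by rw [hz2, one_mul]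
  -- transitivity of `Y` on `Z ∖ 1` gives a contradiction
  obtain ⟨z, hz, z', hz', hz1, hz'1, hne⟩ := hC.amb.four
  by_cases hza : z = a ^ 2
  · have hz'a : z' ≠ a ^ 2 := fun h' => hne (hza.trans h'.symm)
    obtain ⟨y, hy, hyz⟩ := hC.trans (a ^ 2) ha2Z z' hz' ha2 hz'1
    rw [hfix y hy] at hyz
    exact hz'a hyz.symm
  · obtain ⟨y, hy, hyz⟩ := hC.trans (a ^ 2) ha2Z z hz ha2 hz1
    rw [hfix y hy] at hyz
    exact hza hyz.symm

end Cfsg.Agent.Lib.Helper18.TL
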