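import Mathlib
import Cfsg.Prelude.Def_Blocks
import Cfsg.Prelude.Def_BrauerPairs
import Cfsg.Agent.Lib.Helper81.BrNorm

/-!
# The block idempotent over a normal `p`-subgroup as an orbit sum (helper81)

For a normal `p`-subgroup `P` of `G` and a `B`-pair `(P, e)`: the idempotent of `B` is the sum of
the distinct `G`-conjugates of the idempotent of `e` (`orbIdem_eq_blockCoeff`), and this orbit sum
is `|T|⁻¹` times the sum over all of `G` of the conjugates, `T` the stabilizer of `e`
(`sum_conj_eq_card_mul_orbIdem`).
-/

set_option autoImplicit false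
set_option linter.style.haveILetI false

namespace Cfsg.Agent.Lib.Helper81

open Cfsg Cfsg.Agent.Lib.Helper4 Cfsg.Agent.Lib.Helper21 Cfsg.Agent.Lib.Helper22
open scoped ComplexConjugate

section Abstract

variable {G : Type*} [Group G] {p : ℕ} {M : Ideal AlgInt}

theorem omega_irrMap {K K' : Type*} [Group K] [Group K'] [Fintype K] [Fintype K']
    (φ : K ≃* K') (ξ : IrrCharacter K) (a : K' → ℂ) :
    omega (irrMap φ ξ : K' → ℂ) a = omega (ξ : K → ℂ) (fun k => a (φ k)) := by
  rw [omega_def, omega_def, irrMap_one]
  congr 1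
  rw [← Equiv.sum_comp φ.toEquiv]
  refine Finset.sum_congr rfl fun k _ => ?_
  show a (φ k) * (irrMap φ ξ : K' → ℂ) (φ k) = _
  rw [irrMap_apply_apply]

theorem extendByZero_resTo (K : Subgroup G) (a : G → ℂ) (h0 : ∀ g, g ∉ K → a g = 0) :
    a = extendByZero K (resTo K a) := by
  funext g
  by_cases hg : g ∈ K
  · rw [extendByZero_apply_mem' K _ hg]
    rfl
  · rw [extendByZero_apply_not_mem K _ hg, h0 g hg]

theorem isClassFunction_resTo (K : Subgroup G) {a : G → ℂ} (ha : IsClassFunction G a) :
    IsClassFunction K (resTo K a) := by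
  intro g h
  show a ((h * g * h⁻¹ : K) : G) = a (g : G)
  have := ha (g : G) (h : G)
  simpa using this

variable [Fintype G]

/-- The restriction to `K` of an idempotent supported on `K` is idempotent. -/
theorem resTo_idem (K : Subgroup G) [Fintype K] (a : G → ℂ) (h0 : ∀ g, g ∉ K → a g = 0)
    (hid : conv a a = a) : conv (resTo K a) (resTo K a) = resTo K a := by
  have h := extendByZero_conv K (resTo K a) (resTo K a)
  rw [← extendByZero_resTo K a h0, hid] at h
  funext k
  have h2 := congrFun h (k : G)
  rw [extendByZero_apply_mem] at h2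
  rw [← h2]
  rfl

/-- If `b` and `E` are supported on `K` with restrictions central in the group algebra of `K`,
and the central characters of `K` not killing `E` take the value `1` on `b`, then `b * E = E`. -/
theorem conv_eq_of_omega_resTo (K : Subgroup G) [Fintype K] (b E : G → ℂ)
    (hb0 : ∀ g, g ∉ K → b g = 0) (hE0 : ∀ g, g ∉ K → E g = 0)
    (hbK : IsClassFunction K (resTo K b)) (hEK : IsClassFunction K (resTo K E))
    (h : ∀ θ : IrrCharacter K, omega (θ : K → ℂ) (resTo K E) ≠ 0 →
      omega (θ : K → ℂ) (resTo K b) = 1) : conv b E = E := by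
  have h1 : conv (resTo K b) (resTo K E) = resTo K E := by
    refine Cfsg.Agent.Lib.Helper22.eq_of_omega_eq _ _ (conv_isClassFunction hbK hEK) hEK
      fun θ => ?_
    rw [omega_conv θ _ _ hbK hEK]
    by_cases h0 : omega (θ : K → ℂ) (resTo K E) = 0
    · rw [h0, mul_zero]
    · rw [h θ h0, one_mul]
  conv_lhs => rw [extendByZero_resTo K b hb0, extendByZero_resTo K E hE0, extendByZero_conv, h1]
  exact (extendByZero_resTo K E hE0).symm

end Abstract

section Orbit

variable {G : Type*} [Group G] {p : ℕ} {M : Ideal AlgInt}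

theorem InOrbit.symm {P : Subgroup G}
    {e f : Set (IrrCharacter (Subgroup.centralizer (P : Set G)))} (h : InOrbit P e f) :
    InOrbit P f e := by
  obtain ⟨n, hn, rfl⟩ := h
  refine ⟨n⁻¹, inv_mem hn, ?_⟩
  exact (conjSet_inv_conjSet _ n _ e).symm

theorem InOrbit.trans {P : Subgroup G}
    {e f g : Set (IrrCharacter (Subgroup.centralizer (P : Set G)))} (h : InOrbit P e f)
    (h' : InOrbit P f g) : InOrbit P e g := by
  obtain ⟨n, hn, rfl⟩ := h
  obtain ⟨m, hm, rfl⟩ := h'
  refine ⟨m * n, Subgroup.mul_mem _ hm hn, ?_⟩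
  rw [← conjSet_mul]

theorem orbIdem_eq_of_inOrbit (P : Subgroup G)
    (e e' : Set (IrrCharacter (Subgroup.centralizer (P : Set G)))) (h : InOrbit P e e') :
    orbIdem P e' = orbIdem P e := by
  funext x
  unfold orbIdem
  have hset : {f | InOrbit P e' f} = {f | InOrbit P e f} := by
    ext f
    exact ⟨fun h' => h.trans h', fun h' => h.symm.trans h'⟩
  rw [hset]

/-- The central character values of the orbit idempotent on `C_G(P)`. -/
theorem omega_orbIdem_eq (hM : IsPModular p M) (P : Subgroup G)
    (e : Set (IrrCharacter (Subgroup.centralizer (P : Set G)))) (he : IsPBlock M e)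
    [Fintype (Subgroup.centralizer (P : Set G))]
    (ξ : IrrCharacter (Subgroup.centralizer (P : Set G))) [Decidable (InOrbit P e
      (blockOf M (ξ : Subgroup.centralizer (P : Set G) → ℂ)))] :
    omega (ξ : Subgroup.centralizer (P : Set G) → ℂ)
      (resTo (Subgroup.centralizer (P : Set G)) (orbIdem P e)) =
    if InOrbit P e (blockOf M (ξ : Subgroup.centralizer (P : Set G) → ℂ)) then 1 else 0 := by
  by_cases h : InOrbit P e (blockOf M (ξ : Subgroup.centralizer (P : Set G) → ℂ))
  · rw [if_pos h, ← orbIdem_eq_of_inOrbit P e _ h]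
    exact omega_orbIdem hM P _ (h.isPBlock he) ξ (mem_blockOf_self hM ξ)
  · rw [if_neg h]
    exact omega_orbIdem' hM P e he ξ h

variable [Fintype G]

/-- **The block idempotent over a normal `p`-subgroup**: if `P` is a normal `p`-subgroup and
`(P, e)` is a `B`-pair, then the idempotent of `B` is the sum of the idempotents of the distinct
`G`-conjugates of `e`. -/
theorem orbIdem_eq_blockCoeff (hM : IsPModular p M) [Fact p.Prime] (P : Subgroup G) [P.Normal]
    (hP : IsPGroup p P) (B : Set (IrrCharacter G))
    (e : Set (IrrCharacter (Subgroup.centralizer (P : Set G))))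
    (hBe : IsBrauerPairOf p M B P e) : orbIdem P e = blockCoeff B := by
  classical
  letI : Fintype (Subgroup.centralizer (P : Set G)) := Fintype.ofFinite _
  haveI := irr_finite (G := Subgroup.centralizer (P : Set G))
  letI : Fintype (IrrCharacter (Subgroup.centralizer (P : Set G))) := Fintype.ofFinite _
  letI : Fintype (Set (IrrCharacter (Subgroup.centralizer (P : Set G)))) := Fintype.ofFinite _
  obtain ⟨⟨-, he⟩, hB, hΛ⟩ := hBe
  have hNP : ∀ x : G, x ∈ Subgroup.normalizer (P : Set G) := fun x => by
    rw [Subgroup.normalizer_eq_top]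
    trivial
  have hEcf : IsClassFunction G (orbIdem P e) := by
    intro g h
    have := orbIdem_conj P e h⁻¹ (hNP _) g
    rw [inv_inv] at this
    exact this
  have hEloc : ∀ g, MemLocalRing M (orbIdem P e g) := orbIdem_locRing hM P e he
  have hE0 : ∀ g, g ∉ Subgroup.centralizer (P : Set G) → orbIdem P e g = 0 := by
    intro g hg
    rw [orbIdem_eq_sum]
    refine Finset.sum_eq_zero fun f _ => ?_
    rw [subgroupBlockCoeff_not_mem _ f hg, ite_self]
  have hrcf := isClassFunction_resTo (Subgroup.centralizer (P : Set G)) hEcf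
  have hrω := fun θ : IrrCharacter (Subgroup.centralizer (P : Set G)) =>
    omega_orbIdem_eq hM P e he θ
  have hrid : conv (resTo (Subgroup.centralizer (P : Set G)) (orbIdem P e))
      (resTo (Subgroup.centralizer (P : Set G)) (orbIdem P e)) =
      resTo (Subgroup.centralizer (P : Set G)) (orbIdem P e) := by
    refine Cfsg.Agent.Lib.Helper22.eq_of_omega_eq _ _ (conv_isClassFunction hrcf hrcf) hrcf
      fun θ => ?_
    rw [omega_conv θ _ _ hrcf hrcf, hrω]
    split_ifs <;> simp
  have hEid : conv (orbIdem P e) (orbIdem P e) = orbIdem P e := by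
    have h1 := extendByZero_conv (Subgroup.centralizer (P : Set G))
      (resTo (Subgroup.centralizer (P : Set G)) (orbIdem P e))
      (resTo (Subgroup.centralizer (P : Set G)) (orbIdem P e))
    rw [hrid, ← extendByZero_resTo _ _ hE0] at h1
    exact h1
  -- the block idempotent
  have hbcf : IsClassFunction G (blockCoeff B) := blockCoeff_isClassFunction B
  have hb0 : ∀ g, g ∉ Subgroup.centralizer (P : Set G) → blockCoeff B g = 0 := fun g hg =>
    blockCoeff_eq_zero_of_not_mem (Subgroup.centralizer (P : Set G)) hM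
      (fun g hg χ => centralChar_locIdeal_of_not_mem_centralizer hM P hP g hg χ) B hB g hg
  have hbKcf := isClassFunction_resTo (Subgroup.centralizer (P : Set G)) hbcf
  have hbKid := resTo_idem (Subgroup.centralizer (P : Set G)) (blockCoeff B) hb0
    (blockCoeff_conv_self B)
  obtain ⟨-, hb01⟩ := idem_eq_blockCoeff _ hbKcf hbKid
  -- `b * E = E`
  have hconv : conv (blockCoeff B) (orbIdem P e) = orbIdem P e := by
    refine conv_eq_of_omega_resTo (Subgroup.centralizer (P : Set G)) _ _ hb0 hE0 hbKcf hrcf
      fun θ hθ => ?_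
    rw [hrω] at hθ
    have hθU : InOrbit P e (blockOf M (θ : Subgroup.centralizer (P : Set G) → ℂ)) := by
      by_contra hcon
      rw [if_neg hcon] at hθ
      exact hθ rfl
    obtain ⟨n, hn, hblk⟩ := hθU
    have hθmem : θ ∈ conjSet (Subgroup.centralizer (P : Set G)) n
        (normalizer_le_normalizer_centralizer P hn) e := by
      rw [← hblk]
      exact mem_blockOf_self hM θ
    obtain ⟨ξ, hξ, rfl⟩ := hθmem
    have h1 : omega (irrMap (normConj (Subgroup.centralizer (P : Set G)) n
          (normalizer_le_normalizer_centralizer P hn)) ξ : Subgroup.centralizer (P : Set G) → ℂ)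
        (resTo (Subgroup.centralizer (P : Set G)) (blockCoeff B)) =
        omega (ξ : Subgroup.centralizer (P : Set G) → ℂ)
          (resTo (Subgroup.centralizer (P : Set G)) (blockCoeff B)) := by
      rw [omega_irrMap]
      congr 1
      funext k
      show blockCoeff B ((normConj (Subgroup.centralizer (P : Set G)) n
        (normalizer_le_normalizer_centralizer P hn) k : Subgroup.centralizer (P : Set G)) : G) =
        blockCoeff B (k : G)
      rw [normConj_apply]
      exact hbcf (k : G) n
    rw [h1]
    have h2 := hΛ ξ hξ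
    rw [brauerOmega_eq_omega_resTo] at h2
    rcases hb01 ξ with h0 | h1'
    · exfalso
      rw [h0, zero_sub] at h2
      have h3 := locIdeal_neg h2
      rw [neg_neg] at h3
      exact locIdeal_one_not hM h3
    · exact h1'
  -- the set of characters of `G` attached to the orbit idempotent
  obtain ⟨hEA, hE01⟩ := idem_eq_blockCoeff _ hEcf hEid
  have hAB : {χ : IrrCharacter G | omega (χ : G → ℂ) (orbIdem P e) = 1} ⊆ B := by
    have h1 : blockCoeff (B ∩ {χ : IrrCharacter G | omega (χ : G → ℂ) (orbIdem P e) = 1}) =
        blockCoeff {χ : IrrCharacter G | omega (χ : G → ℂ) (orbIdem P e) = 1} := by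
      rw [← conv_blockCoeff_inter, ← hEA, hconv]
    have h2 := eq_of_blockCoeff_eq h1
    intro χ hχ
    rw [← h2] at hχ
    exact hχ.1
  obtain ⟨ξ₀, hξ₀⟩ : e.Nonempty := by
    obtain ⟨θ, rfl⟩ := he
    exact ⟨θ, mem_blockOf_self hM θ⟩
  have hne : ({χ : IrrCharacter G | omega (χ : G → ℂ) (orbIdem P e) = 1}).Nonempty := by
    by_contra hemp
    rw [Set.not_nonempty_iff_eq_empty] at hemp
    have hc0 : orbIdem P e = 0 := by rw [hEA, hemp, blockCoeff_empty]
    have h1 := omega_orbIdem hM P e he ξ₀ hξ₀
    rw [hc0] at h1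
    simp [omega_def, resTo] at h1
  obtain ⟨χ₀, hχ₀⟩ := hne
  have hBA : B ⊆ {χ : IrrCharacter G | omega (χ : G → ℂ) (orbIdem P e) = 1} := by
    intro χ hχ
    have hBeq := Cfsg.Agent.Lib.Helper79.blockOf_eq_of_mem hM hB (hAB hχ₀)
    rw [hBeq] at hχ
    have h1 := omega_sub_locIdeal hM (orbIdem P e) hEcf hEloc χ₀ χ hχ
    rcases hE01 χ with h0 | h1'
    · exfalso
      rw [show omega (χ₀ : G → ℂ) (orbIdem P e) = 1 from hχ₀, h0, sub_zero] at h1
      exact locIdeal_one_not hM h1
    · exact h1'
  rw [hEA, Set.Subset.antisymm hAB hBA]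

end Orbit

section Count

variable {G : Type*} [Group G] [Fintype G]

open Classical in
/-- Orbit–stabilizer for sums over the conjugates of a set of irreducible characters of a
normal subgroup. -/
theorem sum_conjSet_eq (K : Subgroup G) (hN : ∀ x : G, x ∈ Subgroup.normalizer (K : Set G))
    (e : Set (IrrCharacter K)) (T : Subgroup G) (hT : ∀ x, x ∈ T ↔ StabilizesBlock K e x)
    [Fintype (Set (IrrCharacter K))] (Φ : Set (IrrCharacter K) → ℂ) :
    ∑ x : G, Φ (conjSet K x (hN x) e) =
      (Nat.card T : ℂ) *
        ∑ f : Set (IrrCharacter K), if ∃ x, f = conjSet K x (hN x) e then Φ f else 0 := by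
  have hTfix : ∀ y : G, y ∈ T ↔ conjSet K y (hN y) e = e := by
    intro y
    constructor
    · intro hy
      exact (stabilizes_iff_fixed K T (fun t _ => hN t) e).mp (fun x hx => (hT x).mp hx) y hy
    · intro h
      exact (hT y).mpr ((stabilizesBlock_iff K e y).mpr ⟨hN y, h.subset⟩)
  have hfib : ∀ f : Set (IrrCharacter K),
      ∑ x : G, (if f = conjSet K x (hN x) e then Φ f else 0) =
        if ∃ x, f = conjSet K x (hN x) e then (Nat.card T : ℂ) * Φ f else 0 := by
    intro f
    by_cases hf : ∃ x, f = conjSet K x (hN x) e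
    · rw [if_pos hf]
      obtain ⟨n, rfl⟩ := hf
      rw [← Equiv.sum_comp (Equiv.mulLeft n)]
      have hiff : ∀ y : G, (conjSet K n (hN n) e =
          conjSet K (Equiv.mulLeft n y) (hN _) e) ↔ y ∈ T := by
        intro y
        rw [hTfix]
        have e1 : conjSet K (Equiv.mulLeft n y) (hN _) e =
            conjSet K n (hN n) (conjSet K y (hN y) e) := by
          show conjSet K (n * y) _ e = _
          rw [← conjSet_mul]
        rw [e1]
        constructor
        · intro h
          have h2 := congrArg (conjSet K n⁻¹ (inv_mem (hN n))) h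
          rw [conjSet_inv_conjSet, conjSet_inv_conjSet] at h2
          exact h2.symm
        · intro h
          rw [h]
      simp only [hiff]
      rw [Finset.sum_ite, Finset.sum_const_zero, add_zero, Finset.sum_const, nsmul_eq_mul]
      congr 2
      rw [Nat.card_eq_fintype_card, Fintype.card_subtype]
    · rw [if_neg hf]
      refine Finset.sum_eq_zero fun x _ => ?_
      rw [if_neg]
      intro h
      exact hf ⟨x, h⟩
  calc ∑ x : G, Φ (conjSet K x (hN x) e)
      = ∑ x : G, ∑ f : Set (IrrCharacter K),
          (if f = conjSet K x (hN x) e then Φ f else 0) := by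
        refine Finset.sum_congr rfl fun x _ => ?_
        rw [Finset.sum_ite_eq' Finset.univ (conjSet K x (hN x) e) Φ, if_pos (Finset.mem_univ _)]
    _ = ∑ f : Set (IrrCharacter K), ∑ x : G,
          (if f = conjSet K x (hN x) e then Φ f else 0) := Finset.sum_comm
    _ = ∑ f : Set (IrrCharacter K),
          if ∃ x, f = conjSet K x (hN x) e then (Nat.card T : ℂ) * Φ f else 0 :=
        Finset.sum_congr rfl fun f _ => hfib f
    _ = (Nat.card T : ℂ) *
          ∑ f : Set (IrrCharacter K), if ∃ x, f = conjSet K x (hN x) e then Φ f else 0 := by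
        rw [Finset.mul_sum]
        refine Finset.sum_congr rfl fun f _ => ?_
        split_ifs <;> simp

/-- For a normal subgroup `P`: the sum over all of `G` of the conjugates of the idempotent of
`e` is the order of the stabilizer of `e` times the orbit idempotent. -/
theorem sum_conj_eq_card_mul_orbIdem (P : Subgroup G) [P.Normal]
    (e : Set (IrrCharacter (Subgroup.centralizer (P : Set G)))) (T : Subgroup G)
    (hT : ∀ x, x ∈ T ↔ StabilizesBlock (Subgroup.centralizer (P : Set G)) e x) (g : G) :
    ∑ x : G, subgroupBlockCoeff (Subgroup.centralizer (P : Set G)) e (x⁻¹ * g * x) =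
      (Nat.card T : ℂ) * orbIdem P e g := by
  classical
  letI : Fintype (Subgroup.centralizer (P : Set G)) := Fintype.ofFinite _
  haveI := irr_finite (G := Subgroup.centralizer (P : Set G))
  letI : Fintype (IrrCharacter (Subgroup.centralizer (P : Set G))) := Fintype.ofFinite _
  letI : Fintype (Set (IrrCharacter (Subgroup.centralizer (P : Set G)))) := Fintype.ofFinite _
  have hNP : ∀ x : G, x ∈ Subgroup.normalizer (P : Set G) := fun x => by
    rw [Subgroup.normalizer_eq_top]
    trivial
  have hN : ∀ x : G, x ∈ Subgroup.normalizer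
      ((Subgroup.centralizer (P : Set G) : Subgroup G) : Set G) :=
    fun x => normalizer_le_normalizer_centralizer P (hNP x)
  have h1 := sum_conjSet_eq (Subgroup.centralizer (P : Set G)) hN e T hT
    (fun f => subgroupBlockCoeff (Subgroup.centralizer (P : Set G)) f g)
  have h2 : ∑ x : G, subgroupBlockCoeff (Subgroup.centralizer (P : Set G)) e (x⁻¹ * g * x) =
      ∑ x : G, subgroupBlockCoeff (Subgroup.centralizer (P : Set G))
        (conjSet (Subgroup.centralizer (P : Set G)) x (hN x) e) g :=
    Finset.sum_congr rfl fun x _ => (subgroupBlockCoeff_conjSet _ x (hN x) e g).symm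
  rw [h2, h1, orbIdem_eq_sum]
  congr 1
  refine Finset.sum_congr rfl fun f _ => ?_
  by_cases hf : InOrbit P e f
  · rw [if_pos hf, if_pos]
    obtain ⟨n, hn, h⟩ := hf
    exact ⟨n, h⟩
  · rw [if_neg hf, if_neg]
    rintro ⟨x, hx⟩
    exact hf ⟨x, hNP x, hx⟩

end Count

end Cfsg.Agent.Lib.Helper81
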