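import Mathlib
import Cfsg.Prelude.Def_GeometricClasses
import Cfsg.Agent.Lib.Helper71.SpK1

/-!
# S5664, piece J7 (helper81, for helper71): case (i) reduces to configuration (ii)

`case1_red`: if `h W` (with `W` the `L`-line through `u`) is not perpendicular to `W`, the values
`B(h W, u)` form an `F`-line and `h W ∩ W^⊥ ⊆ W`, and `dim_L V ≥ 3`, then there are a new `L`-line
`W₃` and `g ∈ M` with `g W₃ ⊆ W₃^⊥` meeting `W₃` in a hyperplane.
-/

set_option autoImplicit false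

namespace Cfsg.Agent.Lib.Helper81.SpJ7

open Matrix Cfsg.Agent.Lib.Helper71.SpK Cfsg.Agent.Lib.Helper97

variable {ι : Type} [Fintype ι] [DecidableEq ι] {F : Type*} [Field F]
variable {f : (ι → F) → (ι → F) → F} {L : Type*} [Field L] [Algebra F L]

theorem case1_red (S : KS f L) (hf : Cfsg.Geo.IsSymplecticForm f) [FiniteDimensional F L]
    (hr2 : 2 ≤ Module.finrank F L) (hbig : 2 * Module.finrank F L < Fintype.card ι)
    (M : Subgroup (GL ι F)) (hNM : S.NG ≤ M)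
    (hMf : ∀ g ∈ M, ∀ x y : ι → F,
      f ((g : Matrix ι ι F) *ᵥ x) ((g : Matrix ι ι F) *ᵥ y) = f x y)
    {u : ι → F} (hu : u ≠ 0) {h : GL ι F} (hhM : h ∈ M)
    {y₀ : ι → F} (hy₀ : y₀ ∈ gim (S.line u) h) (hy₀u : S.B y₀ u ≠ 0)
    (hline : ∀ y ∈ gim (S.line u) h, ∃ c : F, S.B y u = algebraMap F L c * S.B y₀ u)
    (hperp : ∀ y ∈ gim (S.line u) h, S.B y u = 0 → y ∈ S.line u) :
    ∃ (u₃ : ι → F) (g : GL ι F), S.Cfg2 M u₃ g := by
  classical
  have f_add_right : ∀ x a b, f x (a + b) = f x a + f x b := fun x a b => by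
    rw [S.f_eq, S.f_eq, S.f_eq, S.B_add_right, map_add]
  have f_smul_right : ∀ (c : F) x a, f x (c • a) = c * f x a := fun c x a => by
    rw [S.f_eq, S.f_eq, S.B_smul_right, ← Algebra.smul_def, map_smul, smul_eq_mul]
  have f_skew : ∀ x y, f x y = - f y x := fun x y => by
    rw [S.f_eq, S.f_eq, S.B_skew, map_neg]
  have hinvM : h⁻¹ ∈ M := M.inv_mem hhM
  have hiso : ∀ x y : ι → F, f x ((h : Matrix ι ι F) *ᵥ y) =
      f (((h⁻¹ : GL ι F) : Matrix ι ι F) *ᵥ x) y := by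
    intro x y
    have h1 := hMf h hhM (((h⁻¹ : GL ι F) : Matrix ι ι F) *ᵥ x) y
    rw [gl_mulVec_inv'] at h1
    exact h1
  -- (a) every element of `h W` is `a u + c y₀`
  have ha : ∀ y ∈ gim (S.line u) h, ∃ (c : F) (a : L), y = S.φ a *ᵥ u + c • y₀ := by
    intro y hy
    obtain ⟨c, hc⟩ := hline y hy
    have h1 : y - c • y₀ ∈ gim (S.line u) h :=
      Submodule.sub_mem _ hy (Submodule.smul_mem _ c hy₀)
    have h2 : S.B (y - c • y₀) u = 0 := by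
      rw [S.B_sub_left, S.B_smul_left, hc, sub_self]
    obtain ⟨a, ha⟩ := S.mem_line.mp (hperp _ h1 h2)
    exact ⟨c, a, by rw [ha]; abel⟩
  -- (b) a vector outside `L u + L y₀`
  obtain ⟨w, hw⟩ : ∃ w : ι → F, ∀ a b : L, S.φ a *ᵥ u + S.φ b *ᵥ y₀ ≠ w := by
    by_contra hcon
    push Not at hcon
    have hsurj : Function.Surjective ((S.actL u).coprod (S.actL y₀)) := by
      intro w
      obtain ⟨a, b, hab⟩ := hcon w
      exact ⟨(a, b), by rw [LinearMap.coprod_apply]; exact hab⟩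
    have h1 := LinearMap.finrank_range_le ((S.actL u).coprod (S.actL y₀))
    rw [LinearMap.range_eq_top.mpr hsurj, finrank_top, Module.finrank_prod,
      Module.finrank_fintype_fun_eq_card] at h1
    omega
  obtain ⟨z, hzu, hzy₀, hzw⟩ := S.exists_dual2 hf hw
  have hzP : ∀ a b : L, S.φ a *ᵥ u + S.φ b *ᵥ y₀ ≠ z := by
    intro a b hab
    have h1 : S.B y₀ z = a * S.B y₀ u := by
      rw [← hab, S.B_add_right, S.B_act_right, S.B_act_right, S.B_self, mul_zero, add_zero]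
    have ha0 : a = 0 := by
      rw [hzy₀] at h1
      rcases mul_eq_zero.mp h1.symm with h | h
      · exact h
      · exact absurd h hy₀u
    have h2 : S.B u z = b * S.B u y₀ := by
      rw [← hab, S.B_add_right, S.B_act_right, S.B_act_right, S.B_self, mul_zero, zero_add]
    have hb0 : b = 0 := by
      rw [hzu, S.B_skew u y₀] at h2
      rcases mul_eq_zero.mp h2.symm with h | h
      · exact h
      · exact absurd (neg_eq_zero.mp h) hy₀u
    rw [ha0, hb0, S.φ_zero_mulVec, S.φ_zero_mulVec, add_zero] at hab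
    rw [← hab, S.B_zero_right] at hzw
    exact zero_ne_one hzw
  obtain ⟨u₃, hu₃def⟩ : ∃ u₃ : ι → F, u₃ = u + z := ⟨_, rfl⟩
  have hB3u : S.B u₃ u = 0 := by
    rw [hu₃def, S.B_add, S.B_self, zero_add, S.B_skew, hzu, neg_zero]
  have hc₃ : S.B u₃ y₀ = - S.B y₀ u := by
    rw [hu₃def, S.B_add, S.B_skew u y₀, S.B_skew z y₀, hzy₀, neg_zero, add_zero]
  have hc₃ne : S.B u₃ y₀ ≠ 0 := by
    rw [hc₃]
    exact neg_ne_zero.mpr hy₀u
  have hP3 : ∀ k a b : L, S.φ k *ᵥ u₃ = S.φ a *ᵥ u + S.φ b *ᵥ y₀ → k = 0 := by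
    intro k a b hk
    by_contra hk0
    apply hzP (k⁻¹ * (a - k)) (k⁻¹ * b)
    have h2 : S.φ k *ᵥ u₃ = S.φ k *ᵥ u + S.φ k *ᵥ z := by rw [hu₃def, Matrix.mulVec_add]
    have h1 : S.φ k *ᵥ z = S.φ (a - k) *ᵥ u + S.φ b *ᵥ y₀ := by
      have h3 : S.φ k *ᵥ z = S.φ k *ᵥ u₃ - S.φ k *ᵥ u := by rw [h2]; abel
      rw [S.φ_sub_mulVec, h3, hk]
      abel
    rw [S.φ_mul_mulVec, S.φ_mul_mulVec, ← Matrix.mulVec_add, ← h1, S.φ_inv_cancel hk0]
  have hu₃ : u₃ ≠ 0 := by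
    intro h0
    have h1 := hP3 1 0 0 (by
      rw [h0, Matrix.mulVec_zero, S.φ_zero_mulVec, S.φ_zero_mulVec, add_zero])
    exact one_ne_zero h1
  -- (c)
  obtain ⟨k₁, hk₁⟩ := S.exists_β_eq hc₃ne 1
  obtain ⟨x₁, hx₁def⟩ : ∃ x₁ : ι → F, x₁ = S.φ k₁ *ᵥ u₃ := ⟨_, rfl⟩
  obtain ⟨c₁, hc₁def⟩ : ∃ c₁ : L, c₁ = S.B (((h⁻¹ : GL ι F) : Matrix ι ι F) *ᵥ x₁) u :=
    ⟨_, rfl⟩
  have hc₁ne : c₁ ≠ 0 := by
    obtain ⟨k, hk⟩ := S.mem_line.mp (mem_gim.mp hy₀)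
    have h1 : f x₁ y₀ = 1 := by rw [hx₁def, S.f_act, hk₁]
    have h2 : y₀ = (h : Matrix ι ι F) *ᵥ (S.φ k *ᵥ u) := by rw [hk, gl_mulVec_inv']
    rw [h2, hiso, S.f_act_right, ← hc₁def] at h1
    intro h0
    rw [h0, mul_zero, map_zero] at h1
    exact zero_ne_one h1
  -- (d)
  obtain ⟨e, he0, hβe⟩ : ∃ e : L, e ≠ 0 ∧ S.β e = 0 := by
    by_contra hcon
    push Not at hcon
    have hinj : Function.Injective S.β := by
      rw [← LinearMap.ker_eq_bot, LinearMap.ker_eq_bot']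
      intro e he
      by_contra he0
      exact hcon e he0 he
    have h1 := LinearMap.finrank_le_finrank_of_injective hinj
    rw [Module.finrank_self] at h1
    omega
  obtain ⟨b, hbdef⟩ : ∃ b : L, b = e * (c₁ * c₁)⁻¹ := ⟨_, rfl⟩
  have hb0 : b ≠ 0 := by
    rw [hbdef]
    exact mul_ne_zero he0 (inv_ne_zero (mul_ne_zero hc₁ne hc₁ne))
  have hbcc : S.β (b * c₁ * c₁) = 0 := by
    have h1 : b * c₁ * c₁ = e := by
      rw [hbdef, mul_assoc, mul_assoc, inv_mul_cancel₀ (mul_ne_zero hc₁ne hc₁ne), mul_one]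
    rw [h1, hβe]
  obtain ⟨g, hgdef⟩ : ∃ g : GL ι F, g = h * S.T u b * h⁻¹ := ⟨_, rfl⟩
  have hgM : g ∈ M := by
    rw [hgdef]
    exact M.mul_mem (M.mul_mem hhM (hNM (S.T_mem_NG u b))) hinvM
  have hgv : ∀ v : ι → F, (g : Matrix ι ι F) *ᵥ v = v + (h : Matrix ι ι F) *ᵥ
      (S.φ (b * S.B (((h⁻¹ : GL ι F) : Matrix ι ι F) *ᵥ v) u) *ᵥ u) := by
    intro v
    rw [hgdef, gl_mul_mulVec, gl_mul_mulVec, S.T_mulVec, Matrix.mulVec_add, gl_mulVec_inv']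
  -- (e)
  have he1 : ∀ k : L, S.β (k * S.B u₃ y₀) = 0 →
      S.B (((h⁻¹ : GL ι F) : Matrix ι ι F) *ᵥ (S.φ k *ᵥ u₃)) u = 0 := by
    intro k hk
    apply S.β_nondeg
    intro l
    rw [mul_comm, ← S.f_act_right, ← hiso]
    have hy : (h : Matrix ι ι F) *ᵥ (S.φ l *ᵥ u) ∈ gim (S.line u) h :=
      mulVec_mem_gim h (S.act_mem_line l u)
    obtain ⟨c, a, hca⟩ := ha _ hy
    rw [hca, f_add_right, f_smul_right, S.f_act, S.f_act, S.B_act_right, hB3u, mul_zero,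
      mul_zero, map_zero, hk, mul_zero, add_zero]
  have hL1 : ∀ k : L, S.B (((h⁻¹ : GL ι F) : Matrix ι ι F) *ᵥ (S.φ k *ᵥ u₃)) u =
      algebraMap F L (S.β (k * S.B u₃ y₀)) * c₁ := by
    intro k
    obtain ⟨t, ht⟩ : ∃ t : F, t = S.β (k * S.B u₃ y₀) := ⟨_, rfl⟩
    have hk' : S.β ((k - algebraMap F L t * k₁) * S.B u₃ y₀) = 0 := by
      rw [sub_mul, map_sub, mul_assoc, ← Algebra.smul_def, map_smul, hk₁, smul_eq_mul, mul_one,
        ← ht, sub_self]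
    have h1 := he1 _ hk'
    have h2 : S.φ k *ᵥ u₃ = S.φ (k - algebraMap F L t * k₁) *ᵥ u₃ + t • x₁ := by
      rw [S.φ_sub_mulVec, hx₁def, S.φ_mul_mulVec, S.φ_algebraMap_mulVec]
      abel
    rw [h2, Matrix.mulVec_add, Matrix.mulVec_smul, S.B_add, h1, zero_add, S.B_smul_left,
      ← hc₁def, ← ht]
  obtain ⟨E₁, hE₁def⟩ : ∃ E₁ : ι → F, E₁ = (h : Matrix ι ι F) *ᵥ (S.φ (b * c₁) *ᵥ u) :=
    ⟨_, rfl⟩
  have hE₁ne : E₁ ≠ 0 := by
    rw [hE₁def]
    exact gl_mulVec_ne_zero h (S.φ_mulVec_ne_zero (mul_ne_zero hb0 hc₁ne) hu)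
  have hE₁mem : E₁ ∈ gim (S.line u) h := by
    rw [hE₁def]
    exact mulVec_mem_gim h (S.act_mem_line _ u)
  have hgk : ∀ k : L, (g : Matrix ι ι F) *ᵥ (S.φ k *ᵥ u₃) =
      S.φ k *ᵥ u₃ + S.β (k * S.B u₃ y₀) • E₁ := by
    intro k
    rw [hgv, hL1, ← mul_assoc, mul_comm b, mul_assoc, S.φ_mul_mulVec, S.φ_algebraMap_mulVec,
      Matrix.mulVec_smul, hE₁def]
  have hfix : ∀ k : L, S.β (k * S.B u₃ y₀) = 0 →
      (g : Matrix ι ι F) *ᵥ (S.φ k *ᵥ u₃) = S.φ k *ᵥ u₃ := by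
    intro k hk
    rw [hgk, hk, zero_smul, add_zero]
  -- (f)
  have hE₁not : E₁ ∉ S.line u₃ := by
    intro hE
    obtain ⟨k', hk'⟩ := S.mem_line.mp hE
    obtain ⟨c, a, hca⟩ := ha _ hE₁mem
    have hk'0 : k' = 0 := hP3 k' a (algebraMap F L c) (by
      rw [hk', hca, S.φ_algebraMap_mulVec])
    rw [hk'0, S.φ_zero_mulVec] at hk'
    exact hE₁ne hk'.symm
  -- (g)
  have hinter : ∀ y : ι → F, y ∈ S.line u₃ ⊓ gim (S.line u₃) g ↔
      ∃ k : L, S.β (k * S.B u₃ y₀) = 0 ∧ S.φ k *ᵥ u₃ = y := by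
    intro y
    constructor
    · rintro ⟨hy1, hy2⟩
      obtain ⟨v, hv, rfl⟩ := mem_gim'.mp hy2
      obtain ⟨k, rfl⟩ := S.mem_line.mp hv
      have ht : S.β (k * S.B u₃ y₀) = 0 := by
        by_contra ht
        apply hE₁not
        rw [hgk] at hy1
        have h1 : S.β (k * S.B u₃ y₀) • E₁ ∈ S.line u₃ := by
          have h2 := Submodule.sub_mem _ hy1 (S.act_mem_line k u₃)
          rwa [add_sub_cancel_left] at h2
        have h3 := Submodule.smul_mem _ (S.β (k * S.B u₃ y₀))⁻¹ h1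
        rwa [smul_smul, inv_mul_cancel₀ ht, one_smul] at h3
      exact ⟨k, ht, (hfix k ht).symm⟩
    · rintro ⟨k, hk, rfl⟩
      refine ⟨S.act_mem_line k u₃, ?_⟩
      exact mem_gim'.mpr ⟨_, S.act_mem_line k u₃, hfix k hk⟩
  have hrank : Module.finrank F ↥(S.line u₃ ⊓ gim (S.line u₃) g) + 1 = Module.finrank F L := by
    obtain ⟨lam, hlam⟩ : ∃ lam : L →ₗ[F] F, ∀ l, lam l = S.β (l * S.B u₃ y₀) :=
      ⟨S.β ∘ₗ LinearMap.mulRight F (S.B u₃ y₀), fun l => rfl⟩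
    have heq : S.line u₃ ⊓ gim (S.line u₃) g = (LinearMap.ker lam).map (S.actL u₃) := by
      ext y
      rw [hinter, Submodule.mem_map]
      constructor
      · rintro ⟨k, hk, rfl⟩
        exact ⟨k, by rw [LinearMap.mem_ker, hlam, hk], rfl⟩
      · rintro ⟨k, hk, rfl⟩
        rw [LinearMap.mem_ker, hlam] at hk
        exact ⟨k, hk, rfl⟩
    have hsurj : Function.Surjective lam := by
      intro t
      refine ⟨t • k₁, ?_⟩
      rw [map_smul, hlam, hk₁, smul_eq_mul, mul_one]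
    have h1 := LinearMap.finrank_range_add_finrank_ker lam
    rw [LinearMap.range_eq_top.mpr hsurj, finrank_top, Module.finrank_self] at h1
    rw [heq, (Submodule.equivMapOfInjective (S.actL u₃) (S.actL_injective hu₃)
      (LinearMap.ker lam)).finrank_eq.symm]
    omega
  -- (h)
  have hBE₁ : S.B E₁ u₃ = 0 := by
    apply S.β_ext
    intro l
    rw [mul_zero, map_zero, ← S.f_act_right, f_skew, hE₁def, hiso, S.f_act_right, hL1,
      mul_left_comm, ← Algebra.smul_def, map_smul, hbcc, smul_zero, neg_zero]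
  have hperp3 : ∀ y ∈ gim (S.line u₃) g, S.B y u₃ = 0 := by
    intro y hy
    obtain ⟨v, hv, rfl⟩ := mem_gim'.mp hy
    obtain ⟨k, rfl⟩ := S.mem_line.mp hv
    rw [hgk, S.B_add, S.B_smul_left, hBE₁, mul_zero, add_zero]
    exact S.B_line (S.act_mem_line k u₃)
  exact ⟨u₃, g, hgM, hu₃, hperp3, hrank⟩

end Cfsg.Agent.Lib.Helper81.SpJ7
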