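import Mathlib
import Cfsg.Prelude.Def_Blocks

/-!
# S0998 (simple groups of order `p r q^b`): foundation definitions

`Concl G`: the conclusion of S0998.  `Num`: the numeric data extracted from the principal
`p`-block of a simple group of order `p r q^b` (`r < p`): the nontrivial nonexceptional
characters are indexed by `S` (degrees `d i ≡ sgn i` mod `p`), `x₀ ≡ ε e` is the degree of the
exceptional characters, and `ε x₀ = 1 + Σ sgn i * d i` is the degree equation.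
-/

set_option autoImplicit false

namespace Cfsg.Agent.Lib.Helper81.BU

open Cfsg

universe u v

/-- The conclusion of S0998. -/
def Concl (G : Type u) [Group G] : Prop :=
  (∃ (F : Type) (_ : Field F) (_ : Fintype F), Fintype.card F = 5 ∧
      Nonempty (G ≃* Matrix.ProjectiveSpecialLinearGroup (Fin 2) F)) ∨
  (∃ (F : Type) (_ : Field F) (_ : Fintype F), Fintype.card F = 7 ∧
      Nonempty (G ≃* Matrix.ProjectiveSpecialLinearGroup (Fin 2) F))

/-- Numeric data of the principal `p`-block of a simple group of order `p r q^b`, `r + 2 ≤ p`. -/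
structure Num (p q r b e : ℕ) {ι : Type v} (S : Finset ι) (d : ι → ℕ) (sgn : ι → ℤ)
    (x₀ : ℕ) (ε : ℤ) : Prop where
  hp : p.Prime
  hq : q.Prime
  hr : r.Prime
  hpq : p ≠ q
  hpr : p ≠ r
  hqr : q ≠ r
  hp5 : 5 ≤ p
  hrp : r + 2 ≤ p
  he2 : 2 ≤ e
  hedvd : e ∣ p - 1
  hep : e * p ∣ p * r * q ^ b
  hcard : S.card = e - 1
  hd2 : ∀ i ∈ S, 2 ≤ d i
  hddvd : ∀ i ∈ S, d i ∣ p * r * q ^ b
  hsgn : ∀ i ∈ S, sgn i = 1 ∨ sgn i = -1
  hdmod : ∀ i ∈ S, (d i : ℤ) ≡ sgn i [ZMOD p]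
  hx2 : 2 ≤ x₀
  hxdvd : x₀ ∣ p * r * q ^ b
  hε : ε = 1 ∨ ε = -1
  hxmod : (x₀ : ℤ) ≡ ε * (e : ℤ) [ZMOD p]
  heq : ε * (x₀ : ℤ) = 1 + ∑ i ∈ S, sgn i * (d i : ℤ)

end Cfsg.Agent.Lib.Helper81.BU
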