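import Mathlib
import Cfsg.Agent.Lib.Helper83.BRPerf

set_option autoImplicit false

namespace Cfsg.Agent.Lib.Helper81.BU

universe u

/-- BU-CASEA.  A simple non-cyclic group has trivial centre, so `|G| = |G / Z(G)| = |PSL(2,p)|`,
and `Cfsg.Agent.Lib.Helper83.BRPerf.card_psl2` (with `F = ZMod p`, `q = p`, `gcd(2, p-1) = 2`)
gives `2 |PSL(2,p)| = p (p - 1)(p + 1)`. -/
theorem card_of_iso {G : Type u} [Group G] [Finite G] [IsSimpleGroup G] (hG : ¬ IsCyclic G)
    (p : ℕ) [Fact p.Prime] (hp5 : 5 ≤ p)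
    (h : Nonempty ((G ⧸ Subgroup.center G) ≃*
      Matrix.ProjectiveSpecialLinearGroup (Fin 2) (ZMod p))) :
    2 * Nat.card G = p * (p - 1) * (p + 1) := by
  classical
  obtain ⟨f⟩ := h
  have hp : p.Prime := Fact.out
  -- the centre is trivial
  have hZ : Subgroup.center G = ⊥ := by
    rcases IsSimpleGroup.eq_bot_or_eq_top_of_normal (Subgroup.center G) inferInstance
      with h1 | h1
    · exact h1
    · exfalso
      apply hG
      have hcomm : ∀ a b : G, a * b = b * a := by
        intro a b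
        have hb : b ∈ Subgroup.center G := by rw [h1]; trivial
        exact (Subgroup.mem_center_iff.mp hb a)
      letI : CommGroup G := { ‹Group G› with mul_comm := hcomm }
      exact IsSimpleGroup.isCyclic
  have hcard : Nat.card G = Nat.card (Matrix.ProjectiveSpecialLinearGroup (Fin 2) (ZMod p)) := by
    rw [← Nat.card_congr f.toEquiv]
    have := Subgroup.card_eq_card_quotient_mul_card_subgroup (Subgroup.center G)
    rw [this, hZ, Subgroup.card_bot, mul_one]
  letI : Fintype (ZMod p) := ZMod.fintype p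
  have h1 := Cfsg.Agent.Lib.Helper83.BRPerf.card_psl2 (F := ZMod p) (q := p) (ZMod.card p)
  rw [← hcard] at h1
  have hodd : Nat.gcd 2 (p - 1) = 2 := by
    have h2 : 2 ∣ p - 1 := by
      rcases hp.eq_two_or_odd with h2 | h2
      · omega
      · omega
    exact Nat.gcd_eq_left h2
  rw [hodd] at h1
  -- 2 * ((p-1) * N) = (p^2-1) * (p^2-p)
  have hp1 : 1 ≤ p := by omega
  obtain ⟨k, rfl⟩ : ∃ k, p = k + 1 := ⟨p - 1, by omega⟩
  have e1 : (k + 1) ^ 2 - 1 = k * (k + 2) := by
    have : (k + 1) ^ 2 = k * (k + 2) + 1 := by ring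
    omega
  have e2 : (k + 1) ^ 2 - (k + 1) = k * (k + 1) := by
    have : (k + 1) ^ 2 = k * (k + 1) + (k + 1) := by ring
    omega
  rw [e1, e2] at h1
  simp only [Nat.add_sub_cancel] at h1 ⊢
  have hk : 0 < k := by omega
  have h3 : k * (2 * Nat.card G) = k * ((k + 1) * k * (k + 1 + 1)) := by
    have : k * (2 * Nat.card G) = 2 * (k * Nat.card G) := by ring
    rw [this, h1]; ring
  exact Nat.eq_of_mul_eq_mul_left hk h3

end Cfsg.Agent.Lib.Helper81.BU
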