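import Mathlib
import Cfsg.Agent.Lib.Helper81.BU0

set_option autoImplicit false

namespace Cfsg.Agent.Lib.Helper81.BU

universe v

/-- BU-NUMA (pure arithmetic).  Every nonexceptional degree is divisible by `q`:
`d ∣ p r q^b`, `d ≡ ±1 (mod p)` so `p ∤ d` and `d ∣ r q^b`; if `q ∤ d` then `d ∣ r`, `d = r`
(as `2 ≤ d`), but `2 ≤ r ≤ p - 2` is not `≡ ±1 (mod p)`. -/
theorem q_dvd_deg {p q r b e : ℕ} {ι : Type v} {S : Finset ι} {d : ι → ℕ} {sgn : ι → ℤ}
    {x₀ : ℕ} {ε : ℤ} (h : Num p q r b e S d sgn x₀ ε) : ∀ i ∈ S, q ∣ d i := by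
  intro i hi
  have hp := h.hp
  have hq := h.hq
  have hr := h.hr
  have hd2 := h.hd2 i hi
  have hdvd := h.hddvd i hi
  have hmod := h.hdmod i hi
  have hsgn := h.hsgn i hi
  have hp5 := h.hp5
  have hrp := h.hrp
  have hpd : ¬ p ∣ d i := by
    intro hpd
    have h1 : (p : ℤ) ∣ (d i : ℤ) := by exact_mod_cast hpd
    have h2 : (p : ℤ) ∣ sgn i := by
      have h3 := Int.modEq_iff_dvd.mp hmod
      have h4 : sgn i = (sgn i - d i) + d i := by ring
      rw [h4]
      exact dvd_add h3 h1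
    rcases hsgn with hs | hs
    · rw [hs] at h2
      have h5 := Int.le_of_dvd one_pos h2
      omega
    · rw [hs] at h2
      have h4 : (p : ℤ) ∣ 1 := by
        have h6 := dvd_neg.mpr h2
        simpa using h6
      have h5 := Int.le_of_dvd one_pos h4
      omega
  have hcop : Nat.Coprime (d i) p :=
    Nat.Coprime.symm ((Nat.Prime.coprime_iff_not_dvd hp).mpr hpd)
  have hdvd2 : d i ∣ r * q ^ b := by
    rw [mul_assoc] at hdvd
    exact hcop.dvd_of_dvd_mul_left hdvd
  by_contra hqd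
  have hcopq : Nat.Coprime (d i) (q ^ b) :=
    Nat.Coprime.pow_right b (Nat.Coprime.symm ((Nat.Prime.coprime_iff_not_dvd hq).mpr hqd))
  have hdr : d i ∣ r := hcopq.dvd_of_dvd_mul_right hdvd2
  have hdeq : d i = r := by
    rcases (Nat.dvd_prime hr).mp hdr with h1 | h1
    · omega
    · exact h1
  rw [hdeq] at hmod
  have h5 := Int.modEq_iff_dvd.mp hmod
  have hr2 := hr.two_le
  rcases hsgn with hs | hs
  · rw [hs] at h5
    have h6 : (p : ℤ) ∣ (r : ℤ) - 1 := by
      have h7 := dvd_neg.mpr h5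
      have e1 : -(1 - (r : ℤ)) = (r : ℤ) - 1 := by ring
      rwa [e1] at h7
    have h8 := Int.le_of_dvd (by omega) h6
    omega
  · rw [hs] at h5
    have h6 : (p : ℤ) ∣ (r : ℤ) + 1 := by
      have h7 := dvd_neg.mpr h5
      have e1 : -(-1 - (r : ℤ)) = (r : ℤ) + 1 := by ring
      rwa [e1] at h7
    have h8 := Int.le_of_dvd (by omega) h6
    omega

end Cfsg.Agent.Lib.Helper81.BU
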