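import Mathlib
import Cfsg.Agent.Lib.Helper81.BU0

set_option autoImplicit false

namespace Cfsg.Agent.Lib.Helper81.BU

universe v

/-- BU-NUMB (pure arithmetic).  The exceptional degree is `r`: the degree equation mod `q`
gives `ε x₀ ≡ 1`, so `q ∤ x₀`; `x₀ ≡ ± e (mod p)` with `0 < e < p` gives `p ∤ x₀`;
so `x₀ ∣ r`, and `2 ≤ x₀`. -/
theorem x0_eq {p q r b e : ℕ} {ι : Type v} {S : Finset ι} {d : ι → ℕ} {sgn : ι → ℤ}
    {x₀ : ℕ} {ε : ℤ} (h : Num p q r b e S d sgn x₀ ε) (hq : ∀ i ∈ S, q ∣ d i) : x₀ = r := by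
  have hqx : ¬ q ∣ x₀ := by
    intro hqx
    have h1 : (q : ℤ) ∣ ε * (x₀ : ℤ) := Dvd.dvd.mul_left (Int.natCast_dvd_natCast.2 hqx) ε
    have h2 : (q : ℤ) ∣ ∑ i ∈ S, sgn i * (d i : ℤ) :=
      Finset.dvd_sum (fun i hi => Dvd.dvd.mul_left (Int.natCast_dvd_natCast.2 (hq i hi)) _)
    have h3 : (q : ℤ) ∣ 1 := by
      have h4 : (1 : ℤ) = ε * (x₀ : ℤ) - ∑ i ∈ S, sgn i * (d i : ℤ) := by
        rw [h.heq]
        ring
      rw [h4]
      exact dvd_sub h1 h2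
    have h5 : q ∣ 1 := Int.natCast_dvd_natCast.1 (by simpa using h3)
    exact h.hq.one_lt.ne' (Nat.dvd_one.1 h5)
  have hpx : ¬ p ∣ x₀ := by
    intro hpx
    have h1 : (p : ℤ) ∣ (x₀ : ℤ) := Int.natCast_dvd_natCast.2 hpx
    have h2 : (p : ℤ) ∣ ε * (e : ℤ) := by
      have h3 := h.hxmod.dvd
      have h4 := dvd_add h3 h1
      rwa [sub_add_cancel] at h4
    have h5 : p ∣ e := by
      rcases h.hε with h6 | h6
      · rw [h6, one_mul] at h2
        exact Int.natCast_dvd_natCast.1 h2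
      · rw [h6, neg_one_mul, dvd_neg] at h2
        exact Int.natCast_dvd_natCast.1 h2
    have h7 : p ≤ e := Nat.le_of_dvd (by have := h.he2; omega) h5
    have h8 : e ≤ p - 1 := Nat.le_of_dvd (by have := h.hp5; omega) h.hedvd
    have := h.hp5
    omega
  have hcp : Nat.Coprime x₀ p :=
    Nat.coprime_comm.1 ((Nat.Prime.coprime_iff_not_dvd h.hp).2 hpx)
  have hcq : Nat.Coprime x₀ (q ^ b) :=
    Nat.Coprime.pow_right b (Nat.coprime_comm.1 ((Nat.Prime.coprime_iff_not_dvd h.hq).2 hqx))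
  have h1 : x₀ ∣ r * q ^ b := by
    have h2 := h.hxdvd
    rw [mul_assoc] at h2
    exact hcp.dvd_of_dvd_mul_left h2
  have h2 : x₀ ∣ r := hcq.dvd_of_dvd_mul_right h1
  rcases (Nat.dvd_prime h.hr).1 h2 with h3 | h3
  · have := h.hx2
    omega
  · exact h3

end Cfsg.Agent.Lib.Helper81.BU
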