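import Mathlib
import Cfsg.Agent.Lib.Helper81.BU0

set_option autoImplicit false

namespace Cfsg.Agent.Lib.Helper81.BU

universe v

/-- BU-NUMC1 (pure arithmetic).  Shape of the case `ε = -1`: `r ≡ -e (mod p)` with
`4 ≤ r + e < 2p` gives `r + e = p`; `e ∣ r q^b` (cancel `p` in `hep`) and `gcd(e, r) = 1`
(else `r ∣ p`), so `e = q^c`, `c ≥ 1`; the degree equation `-r = 1 + Σ sgn i * d i` mod `q`
gives `q ∣ r + 1 = p + 1 - q^c`, so `q ∣ p + 1`, and `q ∣ e ∣ p - 1`: `q = 2`. -/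
theorem eps_neg_shape {p q r b e : ℕ} {ι : Type v} {S : Finset ι} {d : ι → ℕ} {sgn : ι → ℤ}
    {x₀ : ℕ} {ε : ℤ} (h : Num p q r b e S d sgn x₀ ε) (hq : ∀ i ∈ S, q ∣ d i) (hx : x₀ = r)
    (hε : ε = -1) : q = 2 ∧ ∃ c : ℕ, 1 ≤ c ∧ e = 2 ^ c ∧ r + 2 ^ c = p := by
  have hp := h.hp
  have hqp := h.hq
  have hr := h.hr
  have hp5 := h.hp5
  have hrp := h.hrp
  have he2 := h.he2
  have hr2 : 2 ≤ r := hr.two_le
  -- `r + e = p`
  have hele : e ≤ p - 1 := Nat.le_of_dvd (by omega) h.hedvd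
  have hdvd : p ∣ r + e := by
    have h1 := h.hxmod
    rw [hx, hε] at h1
    have h2 : (p : ℤ) ∣ (-1 * (e : ℤ)) - (r : ℤ) := h1.dvd
    have h3 : (p : ℤ) ∣ ((r + e : ℕ) : ℤ) := by
      have h4 : ((r + e : ℕ) : ℤ) = -((-1 * (e : ℤ)) - (r : ℤ)) := by push_cast; ring
      rw [h4]
      exact (dvd_neg).2 h2
    exact Int.natCast_dvd_natCast.1 h3
  have hsum : r + e = p := by
    obtain ⟨k, hk⟩ := hdvd
    have hk1 : k = 1 := by
      have h1 : 0 < k := by
        rcases Nat.eq_zero_or_pos k with h0 | h0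
        · rw [h0, mul_zero] at hk; omega
        · exact h0
      have h2 : k < 2 := by
        by_contra hcon
        have h3 : 2 ≤ k := by omega
        have h4 : p * 2 ≤ p * k := Nat.mul_le_mul_left p h3
        omega
      omega
    rw [hk, hk1, mul_one]
  -- `e ∣ q ^ b`
  have hne : ¬ r ∣ e := by
    intro hre
    have h1 : r ∣ p := by
      rw [← hsum]
      exact Dvd.dvd.add (dvd_refl r) hre
    rcases (Nat.dvd_prime hp).1 h1 with h2 | h2
    · omega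
    · exact h.hpr h2.symm
  have hcop : Nat.Coprime e r := ((Nat.Prime.coprime_iff_not_dvd hr).2 hne).symm
  have he1 : e ∣ q ^ b * r := by
    have h1 : e * p ∣ (q ^ b * r) * p := by
      have h2 : (q ^ b * r) * p = p * r * q ^ b := by ring
      rw [h2]
      exact h.hep
    exact Nat.dvd_of_mul_dvd_mul_right hp.pos h1
  have he3 : e ∣ q ^ b := hcop.dvd_of_dvd_mul_right he1
  obtain ⟨c, -, hec⟩ := (Nat.dvd_prime_pow hqp).1 he3
  have hc1 : 1 ≤ c := by
    rcases Nat.eq_zero_or_pos c with h0 | h0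
    · rw [h0, pow_zero] at hec; omega
    · exact h0
  -- `q ∣ r + 1`
  have hq1 : q ∣ r + 1 := by
    have h1 := h.heq
    rw [hx, hε] at h1
    have h2 : (q : ℤ) ∣ ∑ i ∈ S, sgn i * (d i : ℤ) :=
      Finset.dvd_sum fun i hi => Dvd.dvd.mul_left (Int.natCast_dvd_natCast.2 (hq i hi)) _
    have h3 : ((r + 1 : ℕ) : ℤ) = -(∑ i ∈ S, sgn i * (d i : ℤ)) := by
      push_cast
      linarith
    have h4 : (q : ℤ) ∣ ((r + 1 : ℕ) : ℤ) := by
      rw [h3]
      exact (dvd_neg).2 h2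
    exact Int.natCast_dvd_natCast.1 h4
  have hqe : q ∣ e := by
    rw [hec]
    exact dvd_pow_self q (by omega)
  have hq2 : q ∣ p + 1 := by
    have h1 : p + 1 = (r + 1) + e := by omega
    rw [h1]
    exact Dvd.dvd.add hq1 hqe
  have hq3 : q ∣ p - 1 := hqe.trans h.hedvd
  have hq4 : q ∣ 2 := by
    have h1 : 2 = (p + 1) - (p - 1) := by omega
    rw [h1]
    exact Nat.dvd_sub hq2 hq3
  have hq5 : q = 2 := (Nat.prime_dvd_prime_iff_eq hqp Nat.prime_two).1 hq4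
  refine ⟨hq5, c, hc1, ?_, ?_⟩
  · rw [hec, hq5]
  · rw [← hq5, ← hec]
    exact hsum

end Cfsg.Agent.Lib.Helper81.BU
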