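import Mathlib
import Cfsg.Agent.Lib.Helper81.BU0

set_option autoImplicit false

namespace Cfsg.Agent.Lib.Helper81.BU

universe v

/-- powers of two are `1` or `2` modulo `3` -/
theorem numc2_aux_pow3 (a : ℕ) : 2 ^ a % 3 = 1 ∨ 2 ^ a % 3 = 2 := by
  induction a with
  | zero => left; norm_num
  | succ n ih =>
    rw [pow_succ]
    generalize 2 ^ n = x at ih ⊢
    omega

/-- BU-NUMC2 (pure arithmetic).  `ε = -1`, `e = 2` is impossible when `r ≠ 3`:
`S = {i}` (`S.card = e - 1 = 1`), `-r = 1 + sgn i * d i` forces `sgn i = -1`, `d i = r + 1 = p - 1`;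
`d i ∣ p r 2^b`, `p ∤ d i`, `gcd(r + 1, r) = 1`, so `p - 1 = 2^a`; then `r = 2^a - 1`,
`p = 2^a + 1` and `3 ∣ (2^a - 1)(2^a + 1) = r p`, so `r = 3` or `p = 3`. -/
theorem eps_neg_c1 {p q r b e : ℕ} {ι : Type v} {S : Finset ι} {d : ι → ℕ} {sgn : ι → ℤ}
    {x₀ : ℕ} {ε : ℤ} (h : Num p q r b e S d sgn x₀ ε) (hx : x₀ = r) (hε : ε = -1)
    (hq2 : q = 2) (he : e = 2) (hre : r + 2 = p) (hr3 : r ≠ 3) : False := by
  have hS : S.card = 1 := by rw [h.hcard, he]
  obtain ⟨i, hi⟩ := Finset.card_eq_one.mp hS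
  have hiS : i ∈ S := by rw [hi]; exact Finset.mem_singleton_self i
  have heq := h.heq
  rw [hi, Finset.sum_singleton, hε, hx] at heq
  have hd2 := h.hd2 i hiS
  have hdi : d i = r + 1 := by
    rcases h.hsgn i hiS with hs | hs
    · rw [hs] at heq; omega
    · rw [hs] at heq; omega
  have hdvd := h.hddvd i hiS
  rw [hdi, hq2, mul_assoc] at hdvd
  have hcop1 : Nat.Coprime (r + 1) p := by
    rw [← hre]
    exact Nat.coprime_self_add_right.mpr (Nat.coprime_one_right _)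
  have hcop2 : Nat.Coprime (r + 1) r :=
    Nat.coprime_self_add_left.mpr (Nat.coprime_one_left _)
  have h1 : (r + 1) ∣ r * 2 ^ b := hcop1.dvd_of_dvd_mul_left hdvd
  have h2 : (r + 1) ∣ 2 ^ b := hcop2.dvd_of_dvd_mul_left h1
  obtain ⟨a, -, ha⟩ := (Nat.dvd_prime_pow Nat.prime_two).mp h2
  have hp5 := h.hp5
  rcases numc2_aux_pow3 a with h3 | h3
  · have h4 : 3 ∣ r := by rw [← ha] at h3; omega
    exact hr3 ((Nat.prime_dvd_prime_iff_eq Nat.prime_three h.hr).mp h4).symm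
  · have h4 : 3 ∣ p := by rw [← ha] at h3; omega
    have h5 := (Nat.prime_dvd_prime_iff_eq Nat.prime_three h.hp).mp h4
    omega

end Cfsg.Agent.Lib.Helper81.BU
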