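import Mathlib
import Cfsg.Agent.Lib.Helper81.BU0

set_option autoImplicit false

namespace Cfsg.Agent.Lib.Helper81.BU

universe v

/-- powers of two modulo `3` -/
theorem numc3_aux_pow3 (n : ℕ) :
    (n % 2 = 0 → 2 ^ n % 3 = 1) ∧ (n % 2 = 1 → 2 ^ n % 3 = 2) := by
  induction n with
  | zero => constructor <;> intro h <;> simp at h ⊢
  | succ k ih =>
    rw [pow_succ]
    generalize 2 ^ k = x at ih ⊢
    omega

/-- BU-NUMC3 (pure arithmetic).  `ε = -1`, `e = 2^c` with `c ≥ 2` is impossible when `r ≠ 3`: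
`4 ∣ e ∣ p - 1`, so `r + 1 = p + 1 - 2^c ≡ 2 (mod 4)`; all `d i` are even and
`Σ sgn i * d i = -(r + 1) ≡ 2 (mod 4)`, so some `d i ≡ 2 (mod 4)`; `d i ∣ r 2^b` (`p ∤ d i`)
gives `d i = 2` or `d i = 2 r`; `2 ≢ ±1 (mod p)` (`p ≥ 5`); `2 r = 2 p - 2^(c+1) ≡ ±1` gives
`p ∣ 2^(c+1) ± 1`, and `2^(c+1) = 2 e ≤ p - 1` (`e ∣ p - 1`, `e ≠ p - 1` as `r ≥ 2`), so
`p = 2^(c+1) + 1`, `r = 2^c + 1`; one of `c`, `c + 1` is odd, and `3 ∣ 2^odd + 1`:
`r = 3` or `p = 3`. -/
theorem eps_neg_c2 {p q r b e : ℕ} {ι : Type v} {S : Finset ι} {d : ι → ℕ} {sgn : ι → ℤ}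
    {x₀ : ℕ} {ε : ℤ} (h : Num p q r b e S d sgn x₀ ε) (hq : ∀ i ∈ S, q ∣ d i) (hx : x₀ = r)
    (hε : ε = -1) (hq2 : q = 2) (c : ℕ) (hc : 2 ≤ c) (he : e = 2 ^ c) (hre : r + 2 ^ c = p)
    (hr3 : r ≠ 3) : False := by
  have hp := h.hp
  have hp5 := h.hp5
  have hr2 : 2 ≤ r := h.hr.two_le
  have hpow3 := numc3_aux_pow3 c
  have hpow3' := numc3_aux_pow3 (c + 1)
  rw [pow_succ] at hpow3'
  obtain ⟨k, hk⟩ : ∃ k, 2 ^ c = 4 * k := ⟨2 ^ (c - 2), by
    rw [show (4 : ℕ) = 2 ^ 2 by norm_num, ← pow_add]; congr 1; omega⟩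
  have hedvd := h.hedvd
  rw [he] at hedvd
  obtain ⟨j, hj⟩ := hedvd
  generalize hX : 2 ^ c = X at *
  have hj2 : 2 ≤ j := by
    rcases Nat.lt_or_ge j 2 with hlt | hge
    · interval_cases j
      · omega
      · omega
    · exact hge
  have hple : 2 * X + 1 ≤ p := by
    have h1 : X * 2 ≤ X * j := Nat.mul_le_mul_left _ hj2
    omega
  have hr4 : r % 4 = 1 := by
    have h1 : p - 1 = 4 * (k * j) := by rw [hj, hk]; ring
    omega
  -- some `d i` is `2` modulo `4`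
  have heq := h.heq
  rw [hε, hx] at heq
  obtain ⟨i, hiS, hi4⟩ : ∃ i ∈ S, d i % 4 = 2 := by
    by_contra hno
    push Not at hno
    have h1 : (4 : ℤ) ∣ ∑ i ∈ S, sgn i * (d i : ℤ) := by
      apply Finset.dvd_sum
      intro i hi
      have h2 : 2 ∣ d i := by have := hq i hi; rwa [hq2] at this
      have h3 := hno i hi
      have h4 : 4 ∣ d i := by omega
      exact Dvd.dvd.mul_left (Int.natCast_dvd_natCast.mpr h4) _
    generalize ∑ i ∈ S, sgn i * (d i : ℤ) = T at heq h1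
    omega
  have hmod : (p : ℤ) ∣ sgn i - (d i : ℤ) := Int.modEq_iff_dvd.mp (h.hdmod i hiS)
  have hsg := h.hsgn i hiS
  have hpd : ¬ p ∣ d i := by
    intro hpd
    have h1 : (p : ℤ) ∣ (d i : ℤ) := Int.natCast_dvd_natCast.mpr hpd
    have h3 : (p : ℤ) ∣ sgn i := by
      have := dvd_add hmod h1
      simpa using this
    rcases hsg with hs | hs <;> rw [hs] at h3
    · have := Int.le_of_dvd (by norm_num) h3
      omega
    · have := Int.le_of_dvd (by norm_num) ((Int.dvd_neg).mp h3)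
      omega
  have hdvd := h.hddvd i hiS
  rw [hq2, mul_assoc] at hdvd
  have hcop : Nat.Coprime (d i) p :=
    Nat.Coprime.symm ((Nat.Prime.coprime_iff_not_dvd hp).mpr hpd)
  have hdvd2 : d i ∣ r * 2 ^ b := hcop.dvd_of_dvd_mul_left hdvd
  obtain ⟨m, hm⟩ : ∃ m, d i = 2 * m := ⟨d i / 2, by omega⟩
  have hmodd : m % 2 = 1 := by omega
  have hm2 : Nat.Coprime m 2 :=
    Nat.Coprime.symm ((Nat.Prime.coprime_iff_not_dvd Nat.prime_two).mpr (by omega))
  have hmdvd : m ∣ r * 2 ^ b := (Dvd.intro_left 2 hm.symm).trans hdvd2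
  have hmr : m ∣ r := (Nat.Coprime.pow_right b hm2).dvd_of_dvd_mul_right hmdvd
  rcases (Nat.dvd_prime h.hr).mp hmr with h1 | h1
  · -- `d i = 2`
    rcases hsg with hs | hs <;> rw [hs, hm, h1] at hmod
    · have h2 : (p : ℤ) ∣ 1 := by
        have := (Int.dvd_neg).mpr hmod
        simpa using this
      have := Int.le_of_dvd (by norm_num) h2
      omega
    · have h2 : (p : ℤ) ∣ 3 := by
        have := (Int.dvd_neg).mpr hmod
        simpa using this
      have := Int.le_of_dvd (by norm_num) h2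
      omega
  · -- `d i = 2 r`
    have h2 : (p : ℤ) ∣ sgn i - (d i : ℤ) + (p : ℤ) * 2 := dvd_add hmod (Dvd.intro _ rfl)
    rcases hsg with hs | hs <;> rw [hs] at h2
    · have h3 : (p : ℤ) ∣ ((2 * X + 1 : ℕ) : ℤ) := by
        have h4 : ((2 * X + 1 : ℕ) : ℤ) = 1 - (d i : ℤ) + (p : ℤ) * 2 := by
          push_cast; omega
        rw [h4]; exact h2
      have h5 : p ∣ 2 * X + 1 := Int.natCast_dvd_natCast.mp h3
      have h6 : p ≤ 2 * X + 1 := Nat.le_of_dvd (by omega) h5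
      have h7 : p = 2 * X + 1 := le_antisymm h6 hple
      have h8 : r = X + 1 := by omega
      rcases Nat.mod_two_eq_zero_or_one c with hc2 | hc2
      · -- `c + 1` odd: `3 ∣ p`
        have h9 := hpow3'.2 (by omega)
        have h10 : 3 ∣ p := by omega
        have h11 := (Nat.prime_dvd_prime_iff_eq Nat.prime_three hp).mp h10
        omega
      · have h9 := hpow3.2 hc2
        have h10 : 3 ∣ r := by omega
        exact hr3 ((Nat.prime_dvd_prime_iff_eq Nat.prime_three h.hr).mp h10).symm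
    · have h3 : (p : ℤ) ∣ ((2 * X - 1 : ℕ) : ℤ) := by
        have h4 : ((2 * X - 1 : ℕ) : ℤ) = -1 - (d i : ℤ) + (p : ℤ) * 2 := by
          omega
        rw [h4]; exact h2
      have h5 : p ∣ 2 * X - 1 := Int.natCast_dvd_natCast.mp h3
      have h6 : p ≤ 2 * X - 1 := Nat.le_of_dvd (by omega) h5
      omega

end Cfsg.Agent.Lib.Helper81.BU
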