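import Mathlib

set_option autoImplicit false

namespace Cfsg.Agent.Lib.Helper81.BU

/-- BU-NUMD (pure arithmetic).  `p = 2 r + 1` and `2 (p r q^b) = p (p - 1)(p + 1)` give
`q^b = p + 1 = 2 (r + 1)`, so `q = 2`, `p = 2^b - 1`, `r = 2^(b-1) - 1`; one of `b`, `b - 1` is
even (and `≥ 2`), and `3 ∣ 2^even - 1`: `p = 3` or `r = 3`. -/
theorem caseA_false (p q r b : ℕ) (hp : p.Prime) (hq : q.Prime) (hr : r.Prime) (hp5 : 5 ≤ p)
    (hr3 : r ≠ 3) (hpr : 2 * r + 1 = p)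
    (hord : 2 * (p * r * q ^ b) = p * (p - 1) * (p + 1)) : False := by
  have hr2 := hr.two_le
  subst hpr
  have h2 : 2 * r + 1 - 1 = 2 * r := by omega
  rw [h2] at hord
  have h1 : q ^ b = 2 * (r + 1) := by
    have h3 : 2 * ((2 * r + 1) * r) * q ^ b = 2 * ((2 * r + 1) * r) * (2 * (r + 1)) := by
      linarith
    have h0 : 0 < 2 * ((2 * r + 1) * r) := by
      have : 0 < r := by omega
      positivity
    exact Nat.eq_of_mul_eq_mul_left h0 h3
  have hq2 : q = 2 := by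
    have h3 : 2 ∣ q ^ b := ⟨r + 1, h1⟩
    exact ((Nat.prime_dvd_prime_iff_eq Nat.prime_two hq).mp
      (Nat.prime_two.dvd_of_dvd_pow h3)).symm
  subst hq2
  obtain _ | b' := b
  · rw [pow_zero] at h1
    omega
  rw [pow_succ] at h1
  have h4 : 2 ^ b' = r + 1 := by omega
  rcases Nat.even_or_odd' b' with ⟨m, hm | hm⟩
  · rw [hm, pow_mul] at h4
    have h5 : (2 ^ 2) ^ m % 3 = 1 := by
      rw [Nat.pow_mod]; norm_num
    have h6 : 3 ∣ r := by omega
    exact hr3 ((Nat.prime_dvd_prime_iff_eq Nat.prime_three hr).mp h6).symm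
  · rw [hm, pow_succ, pow_mul] at h4
    have h5 : (2 ^ 2) ^ m % 3 = 1 := by
      rw [Nat.pow_mod]; norm_num
    have h6 : 3 ∣ 2 * r + 1 := by omega
    have h7 := (Nat.prime_dvd_prime_iff_eq Nat.prime_three hp).mp h6
    omega

end Cfsg.Agent.Lib.Helper81.BU
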