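import Mathlib

/-!
# S0997 (Brauer–Tuan: simple groups of order `p q^b g₀`, `g₀ < p - 1`): foundation definitions

`Concl G p`: the conclusion of S0997.  `NumT`: the numeric data extracted from the principal
`p`-block: the nontrivial nonexceptional characters are indexed by `S` (degrees `d i ≡ sgn i`
mod `p`), `x₀ ≡ ε e` is the degree of the exceptional characters, `ε x₀ = 1 + Σ sgn i * d i` is the
degree equation, `e = |N(P) : C(P)|`.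
-/

set_option autoImplicit false

namespace Cfsg.Agent.Lib.Helper81.BV

universe u v

/-- The conclusion of S0997. -/
def Concl (G : Type u) [Group G] (p : ℕ) : Prop :=
  (∃ (m : ℕ) (F : Type) (_ : Field F) (_ : Fintype F), Fintype.card F = p ∧
      (p = 2 ^ m + 1 ∨ p = 2 ^ m - 1) ∧
      Nonempty (G ≃* Matrix.ProjectiveSpecialLinearGroup (Fin 2) F)) ∨
  (∃ (m : ℕ) (F : Type) (_ : Field F) (_ : Fintype F), Fintype.card F = 2 ^ m ∧
      p = 2 ^ m + 1 ∧ 3 < p ∧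
      Nonempty (G ≃* Matrix.ProjectiveSpecialLinearGroup (Fin 2) F))

/-- Numeric data of the principal `p`-block of a simple group of order `p q^b g₀`, `g₀ < p - 1`. -/
structure NumT (p q b g₀ e : ℕ) {ι : Type v} (S : Finset ι) (d : ι → ℕ) (sgn : ι → ℤ)
    (x₀ : ℕ) (ε : ℤ) : Prop where
  hp : p.Prime
  hq : q.Prime
  hpq : p ≠ q
  hp5 : 5 ≤ p
  hg1 : 1 ≤ g₀
  hg : g₀ < p - 1
  he2 : 2 ≤ e
  hedvd : e ∣ p - 1
  hep : e * p ∣ p * q ^ b * g₀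
  hcard : S.card = e - 1
  hd2 : ∀ i ∈ S, 2 ≤ d i
  hddvd : ∀ i ∈ S, d i ∣ p * q ^ b * g₀
  hsgn : ∀ i ∈ S, sgn i = 1 ∨ sgn i = -1
  hdmod : ∀ i ∈ S, (d i : ℤ) ≡ sgn i [ZMOD p]
  hx2 : 2 ≤ x₀
  hxdvd : x₀ ∣ p * q ^ b * g₀
  hε : ε = 1 ∨ ε = -1
  hxmod : (x₀ : ℤ) ≡ ε * (e : ℤ) [ZMOD p]
  heq : ε * (x₀ : ℤ) = 1 + ∑ i ∈ S, sgn i * (d i : ℤ)

end Cfsg.Agent.Lib.Helper81.BV
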