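import Mathlib
import Cfsg.Agent.Lib.Helper81.BV0
import Cfsg.Agent.Lib.Helper62.BTP1
import Cfsg.Agent.Lib.Helper29.BTP3
import Cfsg.Agent.Lib.Helper34.BRG4
import Cfsg.Agent.Lib.Helper64.BRG5
import Cfsg.Agent.Lib.Helper66.BRX4
import Cfsg.Agent.Lib.Helper22.DOne2
import Cfsg.Agent.Lib.Helper82.PQ
import Cfsg.Agent.Lib.Helper10.BR0

/-!
# S0997: the principal `p`-block of a simple group with a Sylow `p`-subgroup of order `p`,
as a `Helper10.BR.DOut`, and the numeric data extracted from it.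
-/

set_option autoImplicit false

namespace Cfsg.Agent.Lib.Helper81.BV

open Cfsg
open Cfsg.Agent.Lib.Helper83 (trivIrr)

universe u

/-- The principal block of a simple non-cyclic group with a Sylow `p`-subgroup of order `p`. -/
theorem block_dout {G : Type u} [Group G] [Finite G] [IsSimpleGroup G] (hG : ¬ IsCyclic G)
    (p : ℕ) [Fact p.Prime] (P : Sylow p G) (hP : Nat.card P = p) :
    ∃ (M : Ideal AlgInt) (_ : IsPModular p M) (e t : ℕ) (X Y : Set (IrrCharacter G))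
      (εX : IrrCharacter G → ℤ) (ε : ℤ),
      (Subgroup.centralizer ((P : Subgroup G) : Set G)).relIndex
        (Subgroup.normalizer ((P : Subgroup G) : Set G)) = e ∧
      e * t = p - 1 ∧ 2 ≤ e ∧ e * p ∣ Nat.card G ∧
      Cfsg.Agent.Lib.Helper10.BR.DOut G p M (P : Subgroup G) e X Y εX ε ∧
      trivIrr G ∈ X ∧ εX (trivIrr G) = 1 := by
  classical
  have hp : p.Prime := Fact.out
  letI : Fintype G := Fintype.ofFinite G
  have hperf : commutator G = ⊤ := Cfsg.Agent.Lib.Helper10.BR.X4.perfect hG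
  obtain ⟨n, v, hS, hv, hCc, hNc, hidx, hcard⟩ := Cfsg.Agent.Lib.Helper10.BR.card_decomp p P hP
  obtain ⟨he1', -⟩ := Cfsg.Agent.Lib.Helper10.BT.perf_basic hperf p P hP
  have hedvd' := Cfsg.Agent.Lib.Helper10.BR.relIndex_dvd p P hP
  obtain ⟨e, hedef⟩ : ∃ e, (Subgroup.centralizer ((P : Subgroup G) : Set G)).relIndex
      (Subgroup.normalizer ((P : Subgroup G) : Set G)) = e := ⟨_, rfl⟩
  rw [hedef] at hNc hidx hcard he1' hedvd'
  have he1 : e ≠ 1 := he1'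
  have hedvd : e ∣ p - 1 := hedvd'
  have hp2 := hp.two_le
  have he0 : e ≠ 0 := by
    rintro h0
    rw [h0] at hedvd
    have := Nat.eq_zero_of_zero_dvd hedvd
    omega
  have he2 : 2 ≤ e := by omega
  obtain ⟨t, ht⟩ := hedvd
  have het : e * t = p - 1 := ht.symm
  obtain ⟨M, hM⟩ := Cfsg.Agent.Lib.Helper82.exists_isPModular p
  obtain ⟨X0, Y0, hblock, hdisj, hcX, hcY, εX0, ε0, hX, hε, hdY, hregY, ht1'⟩ :=
    Cfsg.Agent.Lib.Helper22.DOne.core p M hM P hP e hedef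
  have hD0 : Cfsg.Agent.Lib.Helper10.BR.DOut G p M (P : Subgroup G) e X0 Y0 εX0 ε0 :=
    ⟨hblock, hdisj, hcX, hcY, fun χ hχ => (hX χ hχ).1, fun χ hχ => (hX χ hχ).2.1,
      fun χ hχ => (hX χ hχ).2.2, hε, hdY, hregY, ht1'⟩
  obtain ⟨X, Y, εX, ε, hD, htrivX, htrivs⟩ :=
    Cfsg.Agent.Lib.Helper10.BT.triv_norm hperf p M hM (P : Subgroup G) hP e ⟨t, ht⟩ he2
      X0 Y0 εX0 ε0 hD0
  refine ⟨M, hM, e, t, X, Y, εX, ε, hedef, het, he2, ?_, hD, htrivX, htrivs⟩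
  rw [hcard]
  refine Dvd.dvd.mul_left ?_ _
  exact ⟨v, by ring⟩

/-- Numeric data of a `DOut` with `trivIrr G ∈ X` of sign `1`. -/
theorem num_of_dout {G : Type u} [Group G] [Finite G] (p : ℕ) [Fact p.Prime]
    (M : Ideal AlgInt) (P : Subgroup G) (e t : ℕ) (het : e * t = p - 1) (he2 : 2 ≤ e)
    (X Y : Set (IrrCharacter G)) (εX : IrrCharacter G → ℤ) (ε : ℤ)
    (hD : Cfsg.Agent.Lib.Helper10.BR.DOut G p M P e X Y εX ε)
    (htrivX : trivIrr G ∈ X) (htrivs : εX (trivIrr G) = 1) :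
    ∃ (S : Finset (IrrCharacter G)) (θ : IrrCharacter G), θ ∈ Y ∧ S.card = e - 1 ∧
      (∀ χ ∈ S, χ ≠ trivIrr G ∧ (εX χ = 1 ∨ εX χ = -1) ∧
        (charDegree (χ : G → ℂ) : ℤ) ≡ εX χ [ZMOD p]) ∧
      θ ≠ trivIrr G ∧
      (charDegree (θ : G → ℂ) : ℤ) ≡ ε * (e : ℤ) [ZMOD p] ∧
      ε * (charDegree (θ : G → ℂ) : ℤ) =
        1 + ∑ χ ∈ S, εX χ * (charDegree (χ : G → ℂ) : ℤ) ∧
      (∀ θ' ∈ Y, charDegree (θ' : G → ℂ) = charDegree (θ : G → ℂ)) := by
  classical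
  have hp : p.Prime := Fact.out
  haveI : Finite (IrrCharacter G) := Cfsg.Agent.Lib.Helper82.finite_irrCharacter G
  have hp2 := hp.two_le
  have ht1 : 1 ≤ t := by
    rcases Nat.eq_zero_or_pos t with h0 | h0
    · rw [h0] at het
      omega
    · exact h0
  have hdivt : (p - 1) / e = t := by
    rw [← het, Nat.mul_div_cancel_left _ (by omega : 0 < e)]
  have hXfin : X.Finite := Set.toFinite X
  have hXcard : hXfin.toFinset.card = e := by
    rw [← Set.ncard_eq_toFinset_card X hXfin, ← Nat.card_coe_set_eq]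
    exact hD.cardX
  have htrivX' : trivIrr G ∈ hXfin.toFinset := hXfin.mem_toFinset.mpr htrivX
  have hYne : Nat.card Y ≠ 0 := by
    rw [hD.cardY, hdivt]; omega
  obtain ⟨⟨θ, hθ⟩⟩ := (Nat.card_ne_zero.mp hYne).1
  have hθne : θ ≠ trivIrr G := by
    rintro rfl
    exact Set.disjoint_left.mp hD.disj htrivX hθ
  have hreg1 : ¬ p ∣ orderOf (1 : G) := by
    rw [orderOf_one]; exact hp.one_lt.ne' ∘ Nat.dvd_one.mp
  have hdeg : ∀ χ : IrrCharacter G, (χ : G → ℂ) 1 = (charDegree (χ : G → ℂ) : ℂ) :=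
    fun χ => (Cfsg.Agent.Lib.Helper83.irr_degree χ.2).2
  refine ⟨hXfin.toFinset.erase (trivIrr G), θ, hθ, ?_, ?_, hθne, hD.degY θ hθ, ?_, ?_⟩
  · rw [Finset.card_erase_of_mem htrivX', hXcard]
  · intro χ hχ
    have hχX : χ ∈ X := hXfin.mem_toFinset.mp (Finset.mem_of_mem_erase hχ)
    exact ⟨Finset.ne_of_mem_erase hχ, hD.signX χ hχX, hD.degX χ hχX⟩
  · have h1 := hD.t1 θ hθ 1 hreg1
    rw [finsum_mem_eq_finite_toFinset_sum _ hXfin,
      ← Finset.add_sum_erase _ _ htrivX', htrivs] at h1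
    have htriv1 : (trivIrr G : G → ℂ) 1 = 1 := rfl
    rw [htriv1, hdeg θ] at h1
    have h2 : ∑ χ ∈ hXfin.toFinset.erase (trivIrr G), (εX χ : ℂ) * (χ : G → ℂ) 1 =
        ((∑ χ ∈ hXfin.toFinset.erase (trivIrr G),
          εX χ * (charDegree (χ : G → ℂ) : ℤ) : ℤ) : ℂ) := by
      push_cast
      refine Finset.sum_congr rfl (fun χ _ => ?_)
      rw [hdeg χ]
    rw [h2] at h1
    have h3 : ((ε * (charDegree (θ : G → ℂ) : ℤ) : ℤ) : ℂ) =
        ((1 + ∑ χ ∈ hXfin.toFinset.erase (trivIrr G),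
          εX χ * (charDegree (χ : G → ℂ) : ℤ) : ℤ) : ℂ) := by
      push_cast
      push_cast at h1
      linear_combination h1
    exact_mod_cast h3
  · intro θ' hθ'
    have h1 := hD.regY θ' hθ' θ hθ 1 hreg1
    rw [hdeg θ', hdeg θ] at h1
    exact_mod_cast h1

end Cfsg.Agent.Lib.Helper81.BV
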