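import Mathlib
import Cfsg.Prelude.Def_Blocks
import Cfsg.Agent.Lib.Helper10.BR0

/-!
# S0997: the interfaces of the two structural cases `B1` (`e = 2`) and `B2` (`e = 2^c`, `c ≥ 2`)

In both cases the principal `p`-block data is handed over as a `Helper10.BR.DOut` with exceptional
sign `ε = -1` (built from `Helper22.DOne.core` and `Helper10.BT.triv_norm`), and the claim is
`|G| < p^3` (then the landed S0999 finishes).
-/

set_option autoImplicit false

namespace Cfsg.Agent.Lib.Helper81.BV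

open Cfsg
open Cfsg.Agent.Lib.Helper83 (trivIrr)

universe u

/-- Case B1: `e = |N(P):C(P)| = 2`, `ε = -1`, the `(p-1)/2` exceptional characters have degree
`p - 2`, `|G| = p 2^b (p - 2)`.  (Then `X = {1, χ₂}` with `χ₂(1) = p - 1`.) -/
def B1Stmt : Prop :=
  ∀ {G : Type u} [Group G] [Finite G] [IsSimpleGroup G], ¬ IsCyclic G →
    ∀ (p b : ℕ) [Fact p.Prime] (M : Ideal AlgInt), IsPModular p M →
    ∀ (P : Sylow p G), Nat.card P = p →
    (Subgroup.centralizer ((P : Subgroup G) : Set G)).relIndex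
      (Subgroup.normalizer ((P : Subgroup G) : Set G)) = 2 →
    ∀ (X Y : Set (IrrCharacter G)) (εX : IrrCharacter G → ℤ),
    Cfsg.Agent.Lib.Helper10.BR.DOut G p M (P : Subgroup G) 2 X Y εX (-1) →
    trivIrr G ∈ X → εX (trivIrr G) = 1 →
    5 ≤ p →
    (∀ θ ∈ Y, charDegree (θ : G → ℂ) = p - 2) →
    Nat.card G = p * 2 ^ b * (p - 2) →
    Nat.card G < p ^ 3

/-- Case B2: `e = |N(P):C(P)| = 2^c`, `c ≥ 2`, `p = 2e + 1`, `ε = -1`, the two exceptional
characters have degree `e + 1 = (p+1)/2`, `|G| = p 2^b (e + 1)`. -/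
def B2Stmt : Prop :=
  ∀ {G : Type u} [Group G] [Finite G] [IsSimpleGroup G], ¬ IsCyclic G →
    ∀ (p b c e : ℕ) [Fact p.Prime] (M : Ideal AlgInt), IsPModular p M →
    ∀ (P : Sylow p G), Nat.card P = p →
    (Subgroup.centralizer ((P : Subgroup G) : Set G)).relIndex
      (Subgroup.normalizer ((P : Subgroup G) : Set G)) = e →
    ∀ (X Y : Set (IrrCharacter G)) (εX : IrrCharacter G → ℤ),
    Cfsg.Agent.Lib.Helper10.BR.DOut G p M (P : Subgroup G) e X Y εX (-1) →
    trivIrr G ∈ X → εX (trivIrr G) = 1 →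
    2 ≤ c → e = 2 ^ c → p = 2 * e + 1 →
    (∀ θ ∈ Y, charDegree (θ : G → ℂ) = e + 1) →
    Nat.card G = p * 2 ^ b * (e + 1) →
    Nat.card G < p ^ 3

end Cfsg.Agent.Lib.Helper81.BV
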