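import Mathlib
import Cfsg.Agent.Lib.Helper81.BV0

set_option autoImplicit false

namespace Cfsg.Agent.Lib.Helper81.BV

universe v

/-- BV-TA.  `q` divides every nonexceptional degree.  Proof: `d i ≡ ±1 (mod p)` and `p ≥ 5` give
`p ∤ d i`, so `d i ∣ q^b g₀` (`Nat.Coprime.dvd_of_dvd_mul_left`, `d i ∣ p * (q^b * g₀)`).  If
`q ∤ d i` then `d i` is coprime to `q^b`, so `d i ∣ g₀`, `d i ≤ g₀ < p - 1`; but `2 ≤ d i` and
`d i ≡ 1` forces `d i ≥ p + 1`, `d i ≡ -1` forces `d i ≥ p - 1`: contradiction. -/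
theorem q_dvd_deg {p q b g₀ e : ℕ} {ι : Type v} {S : Finset ι} {d : ι → ℕ} {sgn : ι → ℤ}
    {x₀ : ℕ} {ε : ℤ} (h : NumT p q b g₀ e S d sgn x₀ ε) :
    ∀ i ∈ S, q ∣ d i := by
  intro i hi
  have hp := h.hp
  have hq := h.hq
  have hd2 := h.hd2 i hi
  have hdvd := h.hddvd i hi
  have hmod := h.hdmod i hi
  have hg := h.hg
  have hg1 := h.hg1
  have hp5 := h.hp5
  have hpd : (p : ℤ) ∣ (d i : ℤ) - sgn i := Int.modEq_iff_dvd.1 hmod.symm
  by_contra hqd
  have hndvd : ¬ p ∣ d i := by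
    intro hpdi
    have h1 : (p : ℤ) ∣ (d i : ℤ) := Int.natCast_dvd_natCast.2 hpdi
    have h2 : (p : ℤ) ∣ sgn i := by
      have h3 := dvd_sub h1 hpd
      simpa using h3
    rcases h.hsgn i hi with hs | hs
    · rw [hs] at h2
      have h4 := Int.le_of_dvd one_pos h2
      omega
    · rw [hs] at h2
      have h3 : (p : ℤ) ∣ 1 := by simpa using h2
      have h4 := Int.le_of_dvd one_pos h3
      omega
  have hcop : Nat.Coprime (d i) p := ((Nat.Prime.coprime_iff_not_dvd hp).2 hndvd).symm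
  have hdvd2 : d i ∣ q ^ b * g₀ := by
    have h1 : d i ∣ p * (q ^ b * g₀) := by rwa [← mul_assoc]
    exact hcop.dvd_of_dvd_mul_left h1
  have hcopq : Nat.Coprime (d i) (q ^ b) :=
    Nat.Coprime.pow_right b ((Nat.Prime.coprime_iff_not_dvd hq).2 hqd).symm
  have hdg : d i ∣ g₀ := hcopq.dvd_of_dvd_mul_left hdvd2
  have hle : d i ≤ g₀ := Nat.le_of_dvd (by omega) hdg
  rcases h.hsgn i hi with hs | hs
  · rw [hs] at hpd
    have h3 : (p : ℤ) ≤ (d i : ℤ) - 1 := Int.le_of_dvd (by omega) hpd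
    omega
  · rw [hs] at hpd
    have h3 : (p : ℤ) ≤ (d i : ℤ) - -1 := Int.le_of_dvd (by omega) hpd
    omega

end Cfsg.Agent.Lib.Helper81.BV
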