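import Mathlib
import Cfsg.Agent.Lib.Helper81.BV0

set_option autoImplicit false

namespace Cfsg.Agent.Lib.Helper81.BV

universe v

/-- BV-TB.  The exceptional degree divides the cofactor `g₀`.  Proof: `x₀ ≡ ±e (mod p)` with
`2 ≤ e ≤ p - 1` (`e ∣ p - 1`) gives `p ∤ x₀`; the degree equation `ε x₀ = 1 + Σ sgn i * d i` with
`q ∣ d i` gives `ε x₀ ≡ 1 (mod q)`, so `q ∤ x₀`.  Hence `x₀` is coprime to `p` and to `q^b` and
divides `p * q^b * g₀`: `x₀ ∣ g₀`. -/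
theorem x0_dvd {p q b g₀ e : ℕ} {ι : Type v} {S : Finset ι} {d : ι → ℕ} {sgn : ι → ℤ}
    {x₀ : ℕ} {ε : ℤ} (h : NumT p q b g₀ e S d sgn x₀ ε)
    (hq : ∀ i ∈ S, q ∣ d i) : x₀ ∣ g₀ := by
  have hp := h.hp
  have hqp := h.hq
  have hp5 := h.hp5
  -- p ∤ x₀
  have h1 : ¬ p ∣ x₀ := by
    intro hpx
    have hxz : (p : ℤ) ∣ (x₀ : ℤ) := by exact_mod_cast hpx
    have hmod := h.hxmod
    have h2 : (p : ℤ) ∣ ε * (e : ℤ) := by
      have h3 : (p : ℤ) ∣ ε * (e : ℤ) - (x₀ : ℤ) := hmod.dvd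
      have h4 := dvd_add h3 hxz
      simpa using h4
    have h5 : (p : ℤ) ∣ (e : ℤ) := by
      rcases h.hε with hε | hε
      · rw [hε] at h2; simpa using h2
      · rw [hε] at h2
        have : (p : ℤ) ∣ -(e : ℤ) := by simpa using h2
        exact (dvd_neg).mp this
    have h6 : p ∣ e := by exact_mod_cast h5
    have he2 := h.he2
    have h7 : e ≤ p - 1 := Nat.le_of_dvd (by omega) h.hedvd
    have h8 : p ≤ e := Nat.le_of_dvd (by omega) h6
    omega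
  -- q ∤ x₀
  have h2 : ¬ q ∣ x₀ := by
    intro hqx
    have hxz : (q : ℤ) ∣ (x₀ : ℤ) := by exact_mod_cast hqx
    have hsum : (q : ℤ) ∣ ∑ i ∈ S, sgn i * (d i : ℤ) := by
      apply Finset.dvd_sum
      intro i hi
      have : (q : ℤ) ∣ (d i : ℤ) := by exact_mod_cast hq i hi
      exact Dvd.dvd.mul_left this _
    have heq := h.heq
    have h3 : (q : ℤ) ∣ ε * (x₀ : ℤ) := Dvd.dvd.mul_left hxz _
    have h4 : (q : ℤ) ∣ 1 := by
      have h5 : (1 : ℤ) = ε * (x₀ : ℤ) - ∑ i ∈ S, sgn i * (d i : ℤ) := by rw [heq]; ring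
      rw [h5]
      exact dvd_sub h3 hsum
    have h6 : q ∣ 1 := by exact_mod_cast h4
    have := hqp.two_le
    have := Nat.le_of_dvd (by norm_num) h6
    omega
  have hc1 : Nat.Coprime x₀ p := (Nat.coprime_comm.mp ((Nat.Prime.coprime_iff_not_dvd hp).mpr h1))
  have hc2 : Nat.Coprime x₀ (q ^ b) :=
    Nat.Coprime.pow_right b (Nat.coprime_comm.mp ((Nat.Prime.coprime_iff_not_dvd hqp).mpr h2))
  have hc3 : Nat.Coprime x₀ (p * q ^ b) := Nat.Coprime.mul_right hc1 hc2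
  exact hc3.dvd_of_dvd_mul_left h.hxdvd

end Cfsg.Agent.Lib.Helper81.BV
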