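import Mathlib
import Cfsg.Agent.Lib.Helper81.BV0

set_option autoImplicit false

namespace Cfsg.Agent.Lib.Helper81.BV

universe v

/-- BV-TE1.  Order arithmetic for `PSL(2,p)`: if `2 q^b g₀ = (p - 1)(p + 1)` with `g₀ < p - 1` then
`p = 2^m ± 1`.  Proof: put `A = p - 1`, `B = p + 1` (both even, `gcd(A, B) = 2`); `g₀ < A` gives
`2 q^b > B`.  `q` odd: `q` cannot divide both `A` and `B`, so `q^b ∣ A` or `q^b ∣ B`, and being odd
it divides `A/2` or `B/2`: `q^b ≤ B/2`, contradiction.  `q = 2`: exactly one of `A, B` is `≡ 2 (mod 4)`;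
let `C` be the other one, `C = 2^v w` with `w` odd.  `2^(b+1) g₀ = A B` gives `b ≤ v`, and
`2^(b+1) > B ≥ C = 2^v w ≥ 2^b w` gives `w < 2`, `w = 1`: `C = 2^v`, so `p = 2^v + 1` (`C = A`) or
`p = 2^v - 1` (`C = B`). -/
theorem psl_order_arith (p q b g₀ : ℕ) (hp : p.Prime) (hq : q.Prime) (hp5 : 5 ≤ p)
    (hg : g₀ < p - 1) (h : 2 * (p * q ^ b * g₀) = p * (p - 1) * (p + 1)) :
    ∃ m : ℕ, p = 2 ^ m + 1 ∨ p = 2 ^ m - 1 := by
  obtain ⟨k, rfl⟩ : ∃ k, p = 2 * k + 1 := hp.odd_of_ne_two (by omega)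
  rw [Nat.add_sub_cancel] at hg h
  have hk2 : 2 ≤ k := by omega
  -- cancel `p` and `2`
  have h1 : (2 * k + 1) * (2 * (q ^ b * g₀)) = (2 * k + 1) * (2 * (2 * (k * (k + 1)))) := by
    calc (2 * k + 1) * (2 * (q ^ b * g₀)) = 2 * ((2 * k + 1) * q ^ b * g₀) := by ring
      _ = (2 * k + 1) * (2 * k) * (2 * k + 1 + 1) := h
      _ = (2 * k + 1) * (2 * (2 * (k * (k + 1)))) := by ring
  have h2 : 2 * (q ^ b * g₀) = 2 * (2 * (k * (k + 1))) :=
    Nat.eq_of_mul_eq_mul_left (by omega : 0 < 2 * k + 1) h1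
  have h3 : q ^ b * g₀ = 2 * (k * (k + 1)) := Nat.eq_of_mul_eq_mul_left (by norm_num : 0 < 2) h2
  -- `k + 1 < q ^ b`
  have hlt : k + 1 < q ^ b := by
    by_contra hle
    push Not at hle
    have e1 : q ^ b * g₀ ≤ (k + 1) * g₀ := Nat.mul_le_mul_right g₀ hle
    have e2 : (k + 1) * g₀ < (k + 1) * (2 * k) :=
      (Nat.mul_lt_mul_left (by omega : 0 < k + 1)).mpr hg
    have e3 : (k + 1) * (2 * k) = 2 * (k * (k + 1)) := by ring
    rw [e3] at e2
    rw [h3] at e1
    exact absurd e1 (not_le.mpr e2)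
  by_cases hq2 : q = 2
  · subst hq2
    -- `b ≥ 1`
    obtain ⟨b', rfl⟩ : ∃ b', b = b' + 1 := by
      rcases b with _ | b'
      · rw [pow_zero] at hlt
        omega
      · exact ⟨b', rfl⟩
    rw [pow_succ] at h3 hlt
    have h4 : 2 ^ b' * g₀ = k * (k + 1) := by
      have e : 2 * (2 ^ b' * g₀) = 2 * (k * (k + 1)) := by
        rw [← h3]
        ring
      exact Nat.eq_of_mul_eq_mul_left (by norm_num : 0 < 2) e
    have hdvd : 2 ^ b' ∣ k * (k + 1) := Dvd.intro g₀ h4
    refine ⟨b' + 1, ?_⟩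
    rcases Nat.even_or_odd k with hke | hko
    · -- `k` even: `2 ^ b' ∣ k`
      left
      have hnd : ¬ 2 ∣ k + 1 := by
        obtain ⟨j, hj⟩ := hke
        omega
      have hcop : Nat.Coprime (2 ^ b') (k + 1) :=
        Nat.Coprime.pow_left b' ((Nat.Prime.coprime_iff_not_dvd Nat.prime_two).mpr hnd)
      obtain ⟨w, hw⟩ := hcop.dvd_of_dvd_mul_right hdvd
      have hw2 : w < 2 := by
        by_contra hcon
        push Not at hcon
        have e := Nat.mul_le_mul_left (2 ^ b') hcon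
        omega
      have hw1 : w = 1 := by
        rcases w with _ | _ | w
        · rw [mul_zero] at hw
          omega
        · rfl
        · omega
      rw [hw1, mul_one] at hw
      rw [pow_succ, hw]
      ring
    · -- `k` odd: `2 ^ b' ∣ k + 1`
      right
      have hnd : ¬ 2 ∣ k := by
        obtain ⟨j, hj⟩ := hko
        omega
      have hcop : Nat.Coprime (2 ^ b') k :=
        Nat.Coprime.pow_left b' ((Nat.Prime.coprime_iff_not_dvd Nat.prime_two).mpr hnd)
      obtain ⟨w, hw⟩ := hcop.dvd_of_dvd_mul_left hdvd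
      have hw2 : w < 2 := by
        by_contra hcon
        push Not at hcon
        have e := Nat.mul_le_mul_left (2 ^ b') hcon
        omega
      have hw1 : w = 1 := by
        rcases w with _ | _ | w
        · rw [mul_zero] at hw
          omega
        · rfl
        · omega
      rw [hw1, mul_one] at hw
      rw [pow_succ, ← hw]
      omega
  · -- `q` odd: impossible
    exfalso
    have hd1 : q ^ b ∣ 2 * (k * (k + 1)) := Dvd.intro g₀ h3
    have hc2 : Nat.Coprime (q ^ b) 2 :=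
      Nat.Coprime.pow_left b ((Nat.coprime_primes hq Nat.prime_two).mpr hq2)
    have hd2 : q ^ b ∣ k * (k + 1) := hc2.dvd_of_dvd_mul_left hd1
    by_cases hqk : q ∣ k
    · have hnd : ¬ q ∣ k + 1 := by
        intro h'
        have h1' : q ∣ 1 := by
          have := Nat.dvd_sub h' hqk
          rwa [Nat.add_sub_cancel_left] at this
        exact hq.one_lt.ne' (Nat.dvd_one.mp h1')
      have hcop : Nat.Coprime (q ^ b) (k + 1) :=
        Nat.Coprime.pow_left b ((Nat.Prime.coprime_iff_not_dvd hq).mpr hnd)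
      have hd3 : q ^ b ∣ k := hcop.dvd_of_dvd_mul_right hd2
      have := Nat.le_of_dvd (by omega) hd3
      omega
    · have hcop : Nat.Coprime (q ^ b) k :=
        Nat.Coprime.pow_left b ((Nat.Prime.coprime_iff_not_dvd hq).mpr hqk)
      have hd3 : q ^ b ∣ k + 1 := hcop.dvd_of_dvd_mul_left hd2
      have := Nat.le_of_dvd (by omega) hd3
      omega

end Cfsg.Agent.Lib.Helper81.BV
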