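import Mathlib
import Cfsg.Agent.Lib.Helper81.BV0

set_option autoImplicit false

namespace Cfsg.Agent.Lib.Helper81.BV

universe v

/-- BV-TN.  If `ε = -1` then `q = 2`, `x₀ = g₀ = p - e` and `e` is a power of `2`.
Proof: `x₀ ≡ -e (mod p)`, `2 ≤ x₀ + e ≤ (p - 2) + (p - 1) < 2p` give `x₀ + e = p`.  `e ∣ p - 1`
and `e ≠ p - 1` (else `x₀ = 1`) give `2 e ≤ p - 1`, so `x₀ = p - e > (p - 1)/2 > g₀ / 2`; with
`x₀ ∣ g₀`, `g₀ < p - 1`: `x₀ = g₀`.  `e * p ∣ p * q^b * g₀` gives `e ∣ q^b * g₀`, and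
`gcd(e, g₀) = gcd(e, p - e) = gcd(e, p) = 1`, so `e ∣ q^b`: `e = q^c` (`Nat.dvd_prime_pow`),
`c ≥ 1` since `e ≥ 2`.  So `q ∣ e ∣ p - 1`.  The degree equation with `q ∣ d i` gives
`-x₀ ≡ 1 (mod q)`, i.e. `q ∣ x₀ + 1 = p - e + 1`, hence `q ∣ p + 1`, and `q ∣ (p + 1) - (p - 1) = 2`. -/
theorem eps_neg {p q b g₀ e : ℕ} {ι : Type v} {S : Finset ι} {d : ι → ℕ} {sgn : ι → ℤ}
    {x₀ : ℕ} {ε : ℤ} (h : NumT p q b g₀ e S d sgn x₀ ε)
    (hq : ∀ i ∈ S, q ∣ d i) (hx : x₀ ∣ g₀) (hε : ε = -1) :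
    q = 2 ∧ x₀ = g₀ ∧ g₀ + e = p ∧ ∃ c : ℕ, 1 ≤ c ∧ e = 2 ^ c := by
  have hp := h.hp
  have hqp := h.hq
  have hp5 := h.hp5
  have hg1 := h.hg1
  have hg := h.hg
  have he2 := h.he2
  have hedvd := h.hedvd
  have hx2 := h.hx2
  have h1 : (p : ℤ) ∣ ((x₀ + e : ℕ) : ℤ) := by
    have h0 := h.hxmod
    rw [hε] at h0
    have h2 := h0.symm.dvd
    have h3 : ((x₀ + e : ℕ) : ℤ) = (x₀ : ℤ) - (-1 * (e : ℤ)) := by push_cast; ring
    rw [h3]; exact h2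
  have h1' : p ∣ x₀ + e := by exact_mod_cast h1
  have hx_le : x₀ ≤ g₀ := Nat.le_of_dvd (by omega) hx
  have he_le : e ≤ p - 1 := Nat.le_of_dvd (by omega) hedvd
  have hsum : x₀ + e = p := by
    obtain ⟨k, hk⟩ := h1'
    rcases k with _ | _ | k
    · omega
    · omega
    · have h4 : p * 2 ≤ p * (k + 1 + 1) := Nat.mul_le_mul_left p (by omega)
      omega
  have h2e : 2 * e ≤ p - 1 := by
    obtain ⟨k, hk⟩ := hedvd
    rcases k with _ | _ | k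
    · omega
    · omega
    · have h4 : e * 2 ≤ e * (k + 1 + 1) := Nat.mul_le_mul_left e (by omega)
      omega
  have hxg : x₀ = g₀ := by
    obtain ⟨m, hm⟩ := hx
    rcases m with _ | _ | m
    · omega
    · omega
    · have h4 : x₀ * 2 ≤ x₀ * (m + 1 + 1) := Nat.mul_le_mul_left x₀ (by omega)
      omega
  have hge : g₀ + e = p := by omega
  have h6 : e ∣ q ^ b * g₀ := by
    have h0 := h.hep
    have h' : p * e ∣ p * (q ^ b * g₀) := by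
      rw [mul_comm p e, ← mul_assoc]; exact h0
    exact (Nat.mul_dvd_mul_iff_left hp.pos).mp h'
  have hcop : Nat.Coprime e g₀ := by
    have hg' : Nat.gcd e g₀ ∣ p := by
      rw [← hge]
      exact dvd_add (Nat.gcd_dvd_right e g₀) (Nat.gcd_dvd_left e g₀)
    rcases (Nat.dvd_prime hp).mp hg' with h4 | h4
    · exact h4
    · have h5 : p ∣ e := h4 ▸ Nat.gcd_dvd_left e g₀
      have h7 := Nat.le_of_dvd (by omega) h5
      omega
  have h7 : e ∣ q ^ b := hcop.dvd_of_dvd_mul_right h6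
  obtain ⟨c, hcb, hc⟩ := (Nat.dvd_prime_pow hqp).mp h7
  have hc1 : 1 ≤ c := by
    rcases c with _ | c
    · simp at hc; omega
    · omega
  have hqe : q ∣ e := hc ▸ dvd_pow_self q (by omega)
  have hqp1 : q ∣ p - 1 := hqe.trans hedvd
  have hqsum : (q : ℤ) ∣ ∑ i ∈ S, sgn i * (d i : ℤ) :=
    Finset.dvd_sum (fun i hi => Dvd.dvd.mul_left (by exact_mod_cast hq i hi) _)
  have h8 : (q : ℤ) ∣ ((x₀ + 1 : ℕ) : ℤ) := by
    have h9 := h.heq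
    rw [hε] at h9
    have h10 : ((x₀ + 1 : ℕ) : ℤ) = -(∑ i ∈ S, sgn i * (d i : ℤ)) := by
      push_cast; linarith
    rw [h10]; exact (dvd_neg).mpr hqsum
  have hqx : q ∣ x₀ + 1 := by exact_mod_cast h8
  have hqp2 : q ∣ p + 1 := by
    have h9 := dvd_add hqx hqe
    rwa [show x₀ + 1 + e = p + 1 by omega] at h9
  have hq2 : q ∣ 2 := by
    have h9 := Nat.dvd_sub hqp2 hqp1
    rwa [show p + 1 - (p - 1) = 2 by omega] at h9
  have hq2' : q = 2 := (Nat.prime_dvd_prime_iff_eq hqp Nat.prime_two).mp hq2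
  refine ⟨hq2', hxg, hge, c, hc1, ?_⟩
  rw [hc, hq2']

end Cfsg.Agent.Lib.Helper81.BV
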