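import Mathlib
import Cfsg.Agent.Lib.Helper81.BV0

set_option autoImplicit false

namespace Cfsg.Agent.Lib.Helper81.BV

universe v

/-- BV-TN2.  If `ε = -1`, `q = 2`, `x₀ = g₀ = p - e` and `e = 2^c` with `c ≥ 2`, then `p = 2 e + 1`.
Proof: the degree equation reads `Σ sgn i * d i = -(g₀ + 1)`, and `g₀ + 1 = p - 2^c + 1 =
2^c (t - 1) + 2 ≡ 2 (mod 4)` (`p - 1 = 2^c t`, `c ≥ 2`).  All `d i` are even; if all were divisible
by `4` the sum would be `≡ 0 (mod 4)`.  So some `i ∈ S` has `d i = 2 m` with `m` odd.  `p ∤ d i`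
(as `d i ≡ ±1`), so `d i ∣ 2^b * g₀` and `m ∣ g₀` (`m` odd), `m ≤ g₀ = p - e ≤ p - 4`, `2 m ≤ 2p - 8`.
`sgn i = 1`: `2 m ≡ 1 (mod p)` forces `2 m = p + 1`; `m = (p+1)/2` divides `g₀ = p - e < p + 1`, so
`p - e = (p + 1)/2`, i.e. `p = 2 e + 1`.  `sgn i = -1`: `2 m ≡ -1` forces `2 m = p - 1`;
`m = (p-1)/2` divides `g₀ = p - e < p - 1`, so `p - e = (p-1)/2`, `2 e = p + 1`; but `e ∣ p - 1`
and `e = (p+1)/2 > (p-1)/2` force `e = p - 1`, i.e. `p = 3`: contradiction with `p ≥ 5`. -/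
theorem eps_neg_c2 {p q b g₀ e : ℕ} {ι : Type v} {S : Finset ι} {d : ι → ℕ} {sgn : ι → ℤ}
    {x₀ : ℕ} {ε : ℤ} (h : NumT p q b g₀ e S d sgn x₀ ε)
    (hq : ∀ i ∈ S, q ∣ d i) (hε : ε = -1) (hq2 : q = 2) (hx : x₀ = g₀) (hge : g₀ + e = p)
    (c : ℕ) (hc : 2 ≤ c) (he : e = 2 ^ c) : p = 2 * e + 1 := by
  have hp := h.hp
  have hp5 := h.hp5
  have hg1 := h.hg1
  have hg := h.hg
  have hedvd := h.hedvd
  have heq := h.heq
  have he2 := h.he2
  have h4e : 4 ∣ e := by
    rw [he]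
    obtain ⟨c', rfl⟩ : ∃ c', c = c' + 2 := ⟨c - 2, by omega⟩
    exact ⟨2 ^ c', by ring⟩
  have h4p : 4 ∣ p - 1 := h4e.trans hedvd
  have he4 : 4 ≤ e := Nat.le_of_dvd (by omega) h4e
  -- some degree is `≡ 2 (mod 4)`
  have hex : ∃ i ∈ S, ¬ 4 ∣ d i := by
    by_contra hcon
    simp only [not_exists, not_and, not_not] at hcon
    have hsum : (4 : ℤ) ∣ ∑ i ∈ S, sgn i * (d i : ℤ) := by
      apply Finset.dvd_sum
      intro i hi
      have h4d : (4 : ℤ) ∣ (d i : ℤ) := by exact_mod_cast hcon i hi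
      exact Dvd.dvd.mul_left h4d _
    rw [hε, hx] at heq
    have h4g : (4 : ℤ) ∣ (g₀ : ℤ) + 1 := by
      have h5 : (g₀ : ℤ) + 1 = -(∑ i ∈ S, sgn i * (d i : ℤ)) := by linarith
      rw [h5]
      exact (dvd_neg).mpr hsum
    have h4g' : 4 ∣ g₀ + 1 := by exact_mod_cast h4g
    omega
  obtain ⟨i, hi, hi4⟩ := hex
  have hi2 : 2 ∣ d i := by
    have h6 := hq i hi
    rwa [hq2] at h6
  obtain ⟨m, hm⟩ := hi2
  have hmodd : ¬ 2 ∣ m := by
    rintro ⟨m', rfl⟩
    exact hi4 ⟨m', by rw [hm]; ring⟩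
  have hd2 := h.hd2 i hi
  have hm1 : 1 ≤ m := by omega
  have hdmod := h.hdmod i hi
  have hsg := h.hsgn i hi
  have hpd : ¬ p ∣ d i := by
    intro hpd
    have h1 : (p : ℤ) ∣ (d i : ℤ) := by exact_mod_cast hpd
    have h3 := hdmod.dvd
    have h2 : (p : ℤ) ∣ sgn i := by
      have h7 : (p : ℤ) ∣ (sgn i - d i) + d i := dvd_add h3 h1
      simpa using h7
    rcases hsg with hs | hs
    · rw [hs] at h2
      have h8 := Int.eq_one_of_dvd_one (by positivity) h2
      omega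
    · rw [hs, dvd_neg] at h2
      have h8 := Int.eq_one_of_dvd_one (by positivity) h2
      omega
  have hcop : Nat.Coprime (d i) p := by
    rw [Nat.coprime_comm]
    exact (Nat.Prime.coprime_iff_not_dvd hp).mpr hpd
  have hdd : d i ∣ 2 ^ b * g₀ := by
    have h9 := h.hddvd i hi
    rw [hq2, mul_assoc] at h9
    exact hcop.dvd_of_dvd_mul_left h9
  have hmg : m ∣ g₀ := by
    have h1 : m ∣ 2 ^ b * g₀ := (Dvd.intro_left 2 hm.symm).trans hdd
    have h2 : Nat.Coprime m (2 ^ b) := by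
      apply Nat.Coprime.pow_right
      rw [Nat.coprime_comm]
      exact (Nat.Prime.coprime_iff_not_dvd Nat.prime_two).mpr hmodd
    exact h2.dvd_of_dvd_mul_left h1
  obtain ⟨j, hj⟩ := hmg
  have hj1 : 1 ≤ j := by
    rcases Nat.eq_zero_or_pos j with h0 | h0
    · rw [h0] at hj
      omega
    · exact h0
  have hmle : m ≤ g₀ := by
    rw [hj]
    exact Nat.le_mul_of_pos_right m hj1
  rcases hsg with hs | hs
  · rw [hs] at hdmod
    have h1 : (p : ℤ) ∣ (d i : ℤ) - 1 := hdmod.symm.dvd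
    have h2 : p ∣ d i - 1 := by
      zify [show 1 ≤ d i by omega]
      exact h1
    obtain ⟨k, hk⟩ := h2
    have hk1 : k = 1 := by
      have hkpos : 1 ≤ k := by
        rcases Nat.eq_zero_or_pos k with h0 | h0
        · rw [h0] at hk
          omega
        · exact h0
      have hklt : k < 2 := by
        by_contra hk2
        have h10 : p * 2 ≤ p * k := Nat.mul_le_mul_left p (by omega)
        omega
      omega
    rw [hk1, mul_one] at hk
    have hj' : j = 1 := by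
      by_contra hj2
      have h11 : m * 2 ≤ m * j := Nat.mul_le_mul_left m (by omega)
      omega
    rw [hj', mul_one] at hj
    omega
  · rw [hs] at hdmod
    have h1 : (p : ℤ) ∣ (d i : ℤ) + 1 := by
      have h12 := hdmod.symm.dvd
      simpa using h12
    have h2 : p ∣ d i + 1 := by exact_mod_cast h1
    obtain ⟨k, hk⟩ := h2
    have hk1 : k = 1 := by
      have hkpos : 1 ≤ k := by
        rcases Nat.eq_zero_or_pos k with h0 | h0
        · rw [h0] at hk
          omega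
        · exact h0
      have hklt : k < 2 := by
        by_contra hk2
        have h10 : p * 2 ≤ p * k := Nat.mul_le_mul_left p (by omega)
        omega
      omega
    rw [hk1, mul_one] at hk
    have hj' : j = 1 := by
      by_contra hj2
      have h11 : m * 2 ≤ m * j := Nat.mul_le_mul_left m (by omega)
      omega
    rw [hj', mul_one] at hj
    obtain ⟨t, ht⟩ := hedvd
    exfalso
    rcases Nat.lt_or_ge t 2 with ht2 | ht2
    · interval_cases t <;> omega
    · have h13 : e * 2 ≤ e * t := Nat.mul_le_mul_left e ht2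
      omega

end Cfsg.Agent.Lib.Helper81.BV
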