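import Mathlib
import Cfsg.Agent.Lib.Helper81.BV0

set_option autoImplicit false

namespace Cfsg.Agent.Lib.Helper81.BV

universe v

/-- BV-TP.  If `ε = 1` then `x₀ = e`.  Proof: `x₀ ∣ g₀`, `1 ≤ g₀` give `x₀ ≤ g₀ < p - 1`;
`e ∣ p - 1` gives `e ≤ p - 1`; `x₀ ≡ e (mod p)` with both `< p`: equal. -/
theorem eps_pos {p q b g₀ e : ℕ} {ι : Type v} {S : Finset ι} {d : ι → ℕ} {sgn : ι → ℤ}
    {x₀ : ℕ} {ε : ℤ} (h : NumT p q b g₀ e S d sgn x₀ ε)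
    (hx : x₀ ∣ g₀) (hε : ε = 1) : x₀ = e := by
  have hp5 := h.hp5
  have hxle : x₀ ≤ g₀ := Nat.le_of_dvd (by have := h.hg1; omega) hx
  have hele : e ≤ p - 1 := Nat.le_of_dvd (by omega) h.hedvd
  have hg := h.hg
  have hm : ((x₀ : ℕ) : ℤ) ≡ ((e : ℕ) : ℤ) [ZMOD p] := by
    have := h.hxmod
    rw [hε, one_mul] at this
    exact this
  have hm' : x₀ ≡ e [MOD p] := (Int.natCast_modEq_iff).mp hm
  exact Nat.ModEq.eq_of_lt_of_lt hm' (by omega) (by omega)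

end Cfsg.Agent.Lib.Helper81.BV
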