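import Mathlib
import Cfsg.Agent.Lib.Helper10.BR0
import Cfsg.Agent.Lib.Helper4.BRX7
import Cfsg.Agent.Lib.Helper85.BRX8
import Cfsg.Agent.Lib.Helper82.CharCore

/-!
# S0997, piece BW-C1: the class-constant character sum split by blocks
-/

set_option autoImplicit false

namespace Cfsg.Agent.Lib.Helper5.BW

open Cfsg
open Cfsg.Agent.Lib.Helper83 (trivIrr)
open Cfsg.Agent.Lib.Helper10.BR (DOut)
open scoped ComplexConjugate

/-- BW-C1 -/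
theorem br_formula {G : Type*} [Group G] [Fintype G] (p : ℕ) [Fact p.Prime] (M : Ideal AlgInt)
    (hM : IsPModular p M) (P : Sylow p G) (hP : Nat.card P = p)
    (hCP : Subgroup.centralizer ((P : Subgroup G) : Set G) = (P : Subgroup G)) (e : ℕ)
    (X Y : Set (IrrCharacter G)) (εX : IrrCharacter G → ℤ) (ε : ℤ)
    (hD : DOut G p M (P : Subgroup G) e X Y εX ε)
    (hsumY : ∀ x ∈ (P : Subgroup G), x ≠ 1 → ∑ᶠ θ ∈ Y, (θ : G → ℂ) x = -(ε : ℂ))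
    (θ₀ : IrrCharacter G) (hθ₀ : θ₀ ∈ Y) (x : G) (hx : x ∈ (P : Subgroup G)) (hx1 : x ≠ 1)
    (w : G) (hw : ¬ p ∣ orderOf w) :
    ∑ᶠ ψ : IrrCharacter G, (ψ : G → ℂ) w * (ψ : G → ℂ) w * conj ((ψ : G → ℂ) x) / (ψ : G → ℂ) 1 =
      ∑ᶠ χ ∈ X, (εX χ : ℂ) * ((χ : G → ℂ) w * (χ : G → ℂ) w) / (χ : G → ℂ) 1
        - (ε : ℂ) * ((θ₀ : G → ℂ) w * (θ₀ : G → ℂ) w) / (θ₀ : G → ℂ) 1 := by
  classical
  have hp : p.Prime := Fact.out
  have : Finite (IrrCharacter G) := Cfsg.Agent.Lib.Helper82.finite_irrCharacter G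
  let _ : Fintype (IrrCharacter G) := Fintype.ofFinite _
  have hxo : p ∣ orderOf x := by
    have h1 : orderOf x ∣ p := by
      have h0 := orderOf_dvd_natCard (⟨x, hx⟩ : (P : Subgroup G))
      rw [show Nat.card (P : Subgroup G) = p from hP, Subgroup.orderOf_mk] at h0
      exact h0
    rcases (Nat.dvd_prime hp).mp h1 with h | h
    · exact absurd (orderOf_eq_one_iff.mp h) hx1
    · rw [h]
  have hreg1 : ¬ p ∣ orderOf (1 : G) := by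
    rw [orderOf_one]; exact hp.one_lt.ne' ∘ Nat.dvd_one.mp
  have hX : ∀ χ ∈ X, (χ : G → ℂ) w * (χ : G → ℂ) w * conj ((χ : G → ℂ) x) / (χ : G → ℂ) 1 =
      (εX χ : ℂ) * ((χ : G → ℂ) w * (χ : G → ℂ) w) / (χ : G → ℂ) 1 := by
    intro χ hχ
    have h1 := hD.valX χ hχ x hx hx1 1 (Subgroup.one_mem _) hreg1
    rw [mul_one] at h1
    rw [h1, map_intCast]
    ring
  have hYv : ∀ θ ∈ Y, (θ : G → ℂ) w * (θ : G → ℂ) w * conj ((θ : G → ℂ) x) / (θ : G → ℂ) 1 =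
      ((θ₀ : G → ℂ) w * (θ₀ : G → ℂ) w) / (θ₀ : G → ℂ) 1 * conj ((θ : G → ℂ) x) := by
    intro θ hθ
    have h1 := hD.regY θ hθ θ₀ hθ₀ w hw
    have h2 := hD.regY θ hθ θ₀ hθ₀ 1 hreg1
    rw [h1, h2]
    ring
  have hout : ∀ ψ : IrrCharacter G, ψ ∉ X → ψ ∉ Y →
      (ψ : G → ℂ) w * (ψ : G → ℂ) w * conj ((ψ : G → ℂ) x) / (ψ : G → ℂ) 1 = 0 := by
    intro ψ h1 h2
    have hnb : ψ ∉ principalBlock M G := by
      rw [hD.block]; exact fun h => h.elim h1 h2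
    have hdvd : p ∣ charDegree (ψ : G → ℂ) := by
      by_contra hnd
      exact hnb (Cfsg.Agent.Lib.Helper10.BR.mem_principal_of_self_centralizing p M hM P hP hCP
        ψ hnd)
    have h0 := Cfsg.Agent.Lib.Helper10.BR.vanish_of_dvd p P hP ψ hdvd x hxo
    rw [h0]
    simp
  have hsplit : ∀ ψ : IrrCharacter G,
      (ψ : G → ℂ) w * (ψ : G → ℂ) w * conj ((ψ : G → ℂ) x) / (ψ : G → ℂ) 1 =
      (if ψ ∈ X then (εX ψ : ℂ) * ((ψ : G → ℂ) w * (ψ : G → ℂ) w) / (ψ : G → ℂ) 1 else 0) +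
      ((θ₀ : G → ℂ) w * (θ₀ : G → ℂ) w) / (θ₀ : G → ℂ) 1 *
        conj (if ψ ∈ Y then (ψ : G → ℂ) x else 0) := by
    intro ψ
    by_cases h1 : ψ ∈ X
    · have h2 : ψ ∉ Y := fun h2 => Set.disjoint_left.mp hD.disj h1 h2
      rw [if_pos h1, if_neg h2, map_zero, mul_zero, add_zero, hX ψ h1]
    · by_cases h2 : ψ ∈ Y
      · rw [if_neg h1, if_pos h2, zero_add, hYv ψ h2]
      · rw [if_neg h1, if_neg h2, map_zero, mul_zero, add_zero, hout ψ h1 h2]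
  have hXs : ∑ᶠ χ ∈ X, (εX χ : ℂ) * ((χ : G → ℂ) w * (χ : G → ℂ) w) / (χ : G → ℂ) 1 =
      ∑ ψ : IrrCharacter G,
        (if ψ ∈ X then (εX ψ : ℂ) * ((ψ : G → ℂ) w * (ψ : G → ℂ) w) / (ψ : G → ℂ) 1 else 0) := by
    rw [finsum_mem_def, finsum_eq_sum_of_fintype]
    refine Finset.sum_congr rfl (fun ψ _ => ?_)
    rw [Set.indicator_apply]
  have hYs : ∑ᶠ θ ∈ Y, (θ : G → ℂ) x =
      ∑ ψ : IrrCharacter G, (if ψ ∈ Y then (ψ : G → ℂ) x else 0) := by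
    rw [finsum_mem_def, finsum_eq_sum_of_fintype]
    refine Finset.sum_congr rfl (fun ψ _ => ?_)
    rw [Set.indicator_apply]
  rw [finsum_eq_sum_of_fintype, Finset.sum_congr rfl (fun ψ _ => hsplit ψ),
    Finset.sum_add_distrib, ← Finset.mul_sum, ← map_sum, ← hXs, ← hYs, hsumY x hx hx1,
    map_neg, map_intCast]
  ring

end Cfsg.Agent.Lib.Helper5.BW
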