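import Mathlib
import Cfsg.Agent.Lib.Helper10.BR0

/-!
# S0997, piece BW-C5: the relation `t1` of the principal block at an element with integer values
-/

set_option autoImplicit false

namespace Cfsg.Agent.Lib.Helper5.BW

open Cfsg
open Cfsg.Agent.Lib.Helper83 (trivIrr)
open Cfsg.Agent.Lib.Helper10.BR (DOut)
open scoped ComplexConjugate

/-- BW-C5 -/
theorem t1_int {G : Type*} [Group G] [Fintype G] (p : ℕ) (M : Ideal AlgInt) (P : Subgroup G)
    (e : ℕ) (X Y : Set (IrrCharacter G)) (εX : IrrCharacter G → ℤ) (ε : ℤ)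
    (hD : DOut G p M P e X Y εX ε) (htriv : trivIrr G ∈ X) (htrivs : εX (trivIrr G) = 1)
    (s : Finset (IrrCharacter G)) (hs : ∀ χ, χ ∈ s ↔ χ ∈ X ∧ χ ≠ trivIrr G)
    (θ₀ : IrrCharacter G) (hθ₀ : θ₀ ∈ Y) (w : G) (hw : ¬ p ∣ orderOf w)
    (a : IrrCharacter G → ℤ) (ha : ∀ ψ : IrrCharacter G, (ψ : G → ℂ) w = (a ψ : ℂ)) :
    ε * a θ₀ = 1 + ∑ χ ∈ s, εX χ * a χ := by
  classical
  have h1 := hD.t1 θ₀ hθ₀ w hw
  have hXs : X = ((insert (trivIrr G) s : Finset (IrrCharacter G)) : Set (IrrCharacter G)) := by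
    ext χ
    rw [Finset.mem_coe, Finset.mem_insert, hs]
    constructor
    · intro hχ
      by_cases hχ1 : χ = trivIrr G
      · exact Or.inl hχ1
      · exact Or.inr ⟨hχ, hχ1⟩
    · rintro (h | h)
      · rw [h]; exact htriv
      · exact h.1
  have hnot : trivIrr G ∉ s := fun h => ((hs _).mp h).2 rfl
  rw [hXs, finsum_mem_coe_finset, Finset.sum_insert hnot, htrivs] at h1
  have ht : a (trivIrr G) = 1 := by
    have h2 := ha (trivIrr G)
    have h3 : (trivIrr G : G → ℂ) w = 1 := rfl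
    rw [h3] at h2
    exact_mod_cast h2.symm
  rw [ha θ₀, ha (trivIrr G), ht] at h1
  have h4 : ∑ χ ∈ s, (εX χ : ℂ) * (χ : G → ℂ) w = ((∑ χ ∈ s, εX χ * a χ : ℤ) : ℂ) := by
    push_cast
    refine Finset.sum_congr rfl (fun χ _ => ?_)
    rw [ha χ]
  rw [h4] at h1
  have h5 : ((ε * a θ₀ : ℤ) : ℂ) = ((1 + ∑ χ ∈ s, εX χ * a χ : ℤ) : ℂ) := by
    push_cast
    push_cast at h1
    linear_combination h1
  exact_mod_cast h5

end Cfsg.Agent.Lib.Helper5.BW
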