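import Mathlib
import Cfsg.Agent.S4729

/-!
# S0997, piece BW-V: `C(P) = P` from a small faithful character in the principal block
-/

set_option autoImplicit false

namespace Cfsg.Agent.Lib.Helper5.BW

open Cfsg
open Cfsg.Agent.Lib.Helper83 (trivIrr)

/-- BW-V -/
theorem cent_eq_of_small {G : Type*} [Group G] [Finite G] (p : ℕ) [Fact p.Prime]
    (M : Ideal AlgInt) (hM : IsPModular p M) (hperf : commutator G = ⊤) (P : Sylow p G)
    (hP : Nat.card P = p) (θ : IrrCharacter G) (hθ : θ ∈ principalBlock M G)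
    (hfaith : ∀ g : G, (θ : G → ℂ) g = (θ : G → ℂ) 1 → g = 1)
    (hdeg : charDegree (θ : G → ℂ) < 2 * p) :
    Subgroup.centralizer ((P : Subgroup G) : Set G) = (P : Subgroup G) := by
  have hp : p.Prime := Fact.out
  have hpg : IsPGroup p ↥(Subgroup.centralizer ((P : Subgroup G) : Set G)) :=
    Cfsg.Agent.S4729.result p M hM hperf P θ hθ hfaith hdeg
  have hP' : Nat.card (P : Subgroup G) = p := hP
  have hcyc : IsCyclic (P : Subgroup G) := isCyclic_of_prime_card hP'
  have hle : (P : Subgroup G) ≤ Subgroup.centralizer ((P : Subgroup G) : Set G) := by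
    intro x hx
    rw [Subgroup.mem_centralizer_iff]
    intro y hy
    obtain ⟨g, hg⟩ := hcyc.exists_generator
    obtain ⟨i, hi⟩ := Subgroup.mem_zpowers_iff.mp (hg ⟨x, hx⟩)
    obtain ⟨j, hj⟩ := Subgroup.mem_zpowers_iff.mp (hg ⟨y, hy⟩)
    have hx' : x = ((g : (P : Subgroup G)) : G) ^ i := by
      have := congrArg Subtype.val hi
      simpa using this.symm
    have hy' : y = ((g : (P : Subgroup G)) : G) ^ j := by
      have := congrArg Subtype.val hj
      simpa using this.symm
    rw [hx', hy', ← zpow_add, ← zpow_add, add_comm]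
  exact P.is_maximal' hpg hle

end Cfsg.Agent.Lib.Helper5.BW
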