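import Mathlib
import Cfsg.Prelude.Def_Blocks
import Cfsg.Prelude.Def_BrauerPairs
import Cfsg.Prelude.Def_BlockFusion
import Cfsg.Agent.Lib.Helper81.BrSat1

/-!
# The fusion system of a block: fully normalized subgroups are fully automized (helper81)

Let `(Q, f) ≤ (P, e)`, `T = N_G(Q, f)`, `β` the block of `T` with the idempotent of `f`, and
suppose `N_P(Q)` is a defect group of `β`.  Then `N_P(Q) C_G(Q)` has index prime to `p` in `T`
(`not_dvd_index_normalizer_sup`), and `Aut_P(Q)` is a Sylow `p`-subgroup of `Aut_F(Q)`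
(`isFullyAutomized_of_defect`).
-/

set_option autoImplicit false
set_option linter.style.haveILetI false

namespace Cfsg.Agent.Lib.Helper81

open Cfsg Cfsg.Agent.Lib.Helper4 Cfsg.Agent.Lib.Helper21 Cfsg.Agent.Lib.Helper22
open scoped ComplexConjugate

section Aut

variable {G : Type*} [Group G]

/-- The conjugation action of a subgroup `T` of `N_G(Q)` on `Q`. -/
def conjAut (Q T : Subgroup G) (hTN : T ≤ Subgroup.normalizer (Q : Set G)) : T →* MulAut Q where
  toFun t := normConj Q (t : G) (hTN t.2)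
  map_one' := by
    apply MulEquiv.ext
    intro q
    apply Subtype.ext
    rw [normConj_apply]
    simp
  map_mul' s t := by
    apply MulEquiv.ext
    intro q
    apply Subtype.ext
    rw [MulAut.mul_apply, normConj_apply, normConj_apply, normConj_apply]
    simp [mul_assoc]

theorem conjAut_apply (Q T : Subgroup G) (hTN : T ≤ Subgroup.normalizer (Q : Set G)) (t : T)
    (q : Q) : ((conjAut Q T hTN t q : Q) : G) = (t : G) * (q : G) * (t : G)⁻¹ := rfl

theorem conjAut_ker (Q T : Subgroup G) (hTN : T ≤ Subgroup.normalizer (Q : Set G)) :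
    (conjAut Q T hTN).ker = (Subgroup.centralizer (Q : Set G)).subgroupOf T := by
  ext t
  rw [MonoidHom.mem_ker, Subgroup.mem_subgroupOf, Subgroup.mem_centralizer_iff]
  constructor
  · intro h q hq
    have h1 := congrArg (fun α : MulAut Q => ((α ⟨q, hq⟩ : Q) : G)) h
    have h2 : (t : G) * q * (t : G)⁻¹ = q := h1
    calc q * (t : G) = ((t : G) * q * (t : G)⁻¹) * (t : G) := by rw [h2]
      _ = (t : G) * q := by group
  · intro h
    apply MulEquiv.ext
    intro q
    apply Subtype.ext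
    show (t : G) * (q : G) * (t : G)⁻¹ = (q : G)
    rw [← h (q : G) q.2]
    group

theorem relIndex_map_range {T A : Type*} [Group T] [Group A] (Φ : T →* A) (K : Subgroup T) :
    (K.map Φ).relIndex Φ.range = (K ⊔ Φ.ker).index := by
  rw [MonoidHom.range_eq_map, ← Subgroup.relIndex_comap, Subgroup.comap_map_eq,
    Subgroup.relIndex_top_right]

/-- An element conjugating `Q` into itself normalizes `Q` (finite group). -/
theorem mem_normalizer_of_conj_mem [Finite G] (Q : Subgroup G) (g : G)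
    (h : ∀ q ∈ Q, g * q * g⁻¹ ∈ Q) : g ∈ Subgroup.normalizer (Q : Set G) := by
  apply mem_normalizer_of_conj_map_eq
  apply Subgroup.eq_of_le_of_card_ge
  · rintro _ ⟨q, hq, rfl⟩
    exact h q hq
  · exact (card_conj_map Q g).ge

/-- `Aut_P(Q)` is the image of `N_P(Q)` under the conjugation action. -/
theorem autInducedBy_eq [Finite G] (P Q T : Subgroup G)
    (hTN : T ≤ Subgroup.normalizer (Q : Set G))
    (hPT : P ⊓ Subgroup.normalizer (Q : Set G) ≤ T) :
    autInducedBy P Q =
      ((P ⊓ Subgroup.normalizer (Q : Set G)).subgroupOf T).map (conjAut Q T hTN) := by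
  unfold autInducedBy
  have hset : {α : MulAut Q | ∃ g ∈ P, ∀ x : Q, ((α x : Q) : G) = g * (x : G) * g⁻¹} =
      ((((P ⊓ Subgroup.normalizer (Q : Set G)).subgroupOf T).map (conjAut Q T hTN) :
        Subgroup (MulAut Q)) : Set (MulAut Q)) := by
    ext α
    constructor
    · rintro ⟨g, hgP, hg⟩
      have hgN : g ∈ Subgroup.normalizer (Q : Set G) := by
        apply mem_normalizer_of_conj_mem
        intro q hq
        rw [← hg ⟨q, hq⟩]
        exact (α ⟨q, hq⟩).2
      refine ⟨⟨g, hPT ⟨hgP, hgN⟩⟩, Subgroup.mem_subgroupOf.mpr ⟨hgP, hgN⟩, ?_⟩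
      apply MulEquiv.ext
      intro q
      apply Subtype.ext
      exact (hg q).symm
    · rintro ⟨t, ht, rfl⟩
      exact ⟨(t : G), (Subgroup.mem_subgroupOf.mp ht).1, fun x => rfl⟩
  rw [hset, Subgroup.closure_eq]

end Aut

section Sat2

variable {G : Type*} [Group G] [Fintype G] {p : ℕ} {M : Ideal AlgInt}

omit [Fintype G] in
theorem card_upPair_fst [Finite G] (Q H : Subgroup G)
    (hCH : Subgroup.centralizer (Q : Set G) ≤ H)
    (hQH : Q ≤ H) (a : BrauerPairIdx H) (ha : HCent Q H a.1) (hQa : Q.subgroupOf H ≤ a.1) :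
    Nat.card (upPair Q H hCH a ha).1 = Nat.card a.1 := by
  have h1 : Q ⊔ a.1.map H.subtype = a.1.map H.subtype := by
    apply sup_eq_right.mpr
    intro q hq
    exact ⟨⟨q, hQH hq⟩, hQa (Subgroup.mem_subgroupOf.mpr hq), rfl⟩
  show Nat.card ↥(Q ⊔ a.1.map H.subtype) = _
  rw [h1]
  exact Subgroup.card_map_of_injective H.subtype_injective

/-- **Lemma K**: the Brauer pairs of the block with the idempotent of `f` of any subgroup
between `Q C_G(Q)` and the stabilizer `T` are not larger than the defect groups of the block of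
`T`. -/
theorem card_le_defect_of_pair (hM : IsPModular p M) [Fact p.Prime] (Q : Subgroup G)
    (f : Set (IrrCharacter (Subgroup.centralizer (Q : Set G)))) (hQ : IsPGroup p Q)
    (hf : IsPBlock M f) (T : Subgroup G) (hQT : Q ≤ T)
    (hCT : Subgroup.centralizer (Q : Set G) ≤ T)
    (hTN : T ≤ Subgroup.normalizer (Q : Set G))
    (hTstab : ∀ t ∈ T, StabilizesBlock (Subgroup.centralizer (Q : Set G)) f t)
    (β : Set (IrrCharacter T)) (hβB : IsPBlock M β)
    (hβ : ∀ t : T, blockCoeff β t =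
      subgroupBlockCoeff (Subgroup.centralizer (Q : Set G)) f (t : G))
    (D₀ : Subgroup T) (hD₀ : IsDefectGroup p M β D₀)
    (H : Subgroup G) (hQH : Q ≤ H) (hCH : Subgroup.centralizer (Q : Set G) ≤ H) (hHT : H ≤ T)
    (βH : Set (IrrCharacter H))
    (hβH : ∀ h : H, blockCoeff βH h =
      subgroupBlockCoeff (Subgroup.centralizer (Q : Set G)) f (h : G))
    (δ : BrauerPairIdx H) (hδ : IsBrauerPairOf p M βH δ.1 δ.2) (hQδ : Q.subgroupOf H ≤ δ.1) :
    Nat.card δ.1 ≤ Nat.card D₀ := by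
  classical
  letI : Fintype T := Fintype.ofFinite _
  have hμ : HCent Q H δ.1 := hCent_of_le hQH hQδ
  have has : NormalSubpairRel p M ⟨Q, f⟩ (upPair Q H hCH δ hμ) :=
    normalSubpairRel_upPair Q f hQ hf H hCH (hHT.trans hTN) (fun h hh => hTstab h (hHT hh))
      βH hβH δ hμ hδ
  have hsT : (upPair Q H hCH δ hμ).1 ≤ T := by
    refine sup_le hQT ?_
    rintro _ ⟨d, -, rfl⟩
    exact hHT d.2
  obtain ⟨δ', hδ', hQδ', hs⟩ :=
    exists_eq_upPair Q T hCT hQT (upPair Q H hCH δ hμ) le_sup_left hsT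
  have hδ'_pair : IsBrauerPairOf p M β δ'.1 δ'.2 :=
    brauerPairOf_of_normalSubpairRel_upPair Q f T hCT β hβB hβ δ' hδ' (by rw [← hs]; exact has)
  obtain ⟨D₁, u₁, hmax₁, hle₁⟩ := exists_maximal_above β δ'.1 δ'.2 hδ'_pair
  have hD₁ := isDefectGroup_of_maximal hM β D₁ u₁ hmax₁
  have hc1 := Cfsg.Agent.S0908.result p M hM β hβB D₁ hD₁
  have hc0 := Cfsg.Agent.S0908.result p M hM β hβB D₀ hD₀
  have h1 : Nat.card δ'.1 ≤ Nat.card D₁ := Subgroup.card_le_of_le (reflTransGen_le _ _ hle₁)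
  have h2 : Nat.card δ.1 = Nat.card δ'.1 := by
    rw [← card_upPair_fst Q H hCH hQH δ hμ hQδ, hs, card_upPair_fst Q T hCT hQT δ' hδ' hQδ']
  rw [h2, hc0, ← hc1]
  exact h1

/-- Elements of `N_P(Q)` stabilize the block `f` with `(Q, f) ≤ (P, e)`. -/
theorem normalizerIn_le_stab (hM : IsPModular p M) [Fact p.Prime] (P Q : Subgroup G)
    (e : Set (IrrCharacter (Subgroup.centralizer (P : Set G))))
    (f : Set (IrrCharacter (Subgroup.centralizer (Q : Set G))))
    (hPe : IsBrauerPair p M P e) (hf : IsPBlock M f) (hle : SubpairLE p M Q f P e)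
    (T : Subgroup G)
    (hT : ∀ y : G, y ∈ T ↔ y ∈ Subgroup.normalizer (Q : Set G) ∧
      StabilizesBlock (Subgroup.centralizer (Q : Set G)) f y) :
    P ⊓ Subgroup.normalizer (Q : Set G) ≤ T := by
  intro y hy
  have h1 := conjPair_eq_self_of_mem P e y hy.1
  have h2 := conjPair_eq_self_of_le hM Q P f e hPe hf hle y h1 hy.2
  exact (hT y).mpr ((conjPair_eq_self_iff Q f y).mp h2)

/-- If `N_P(Q)` is a defect group of the block of the stabilizer `T` of `(Q, f) ≤ (P, e)`, then
`N_P(Q) C_G(Q)` has index prime to `p` in `T`. -/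
theorem not_dvd_index_normalizer_sup (hM : IsPModular p M) [Fact p.Prime]
    (B : Set (IrrCharacter G)) (P : Subgroup G)
    (e : Set (IrrCharacter (Subgroup.centralizer (P : Set G))))
    (hmax : IsMaximalBrauerPair p M B P e) (Q : Subgroup G)
    (f : Set (IrrCharacter (Subgroup.centralizer (Q : Set G)))) (hf : IsPBlock M f)
    (hle : SubpairLE p M Q f P e) (T : Subgroup G)
    (hT : ∀ y : G, y ∈ T ↔ y ∈ Subgroup.normalizer (Q : Set G) ∧
      StabilizesBlock (Subgroup.centralizer (Q : Set G)) f y)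
    (β : Set (IrrCharacter T)) (hβB : IsPBlock M β)
    (hβ : ∀ t : T, blockCoeff β t =
      subgroupBlockCoeff (Subgroup.centralizer (Q : Set G)) f (t : G))
    (hdef : IsDefectGroup p M β ((P ⊓ Subgroup.normalizer (Q : Set G)).subgroupOf T)) :
    ¬ p ∣ ((P ⊓ Subgroup.normalizer (Q : Set G)).subgroupOf T ⊔
      (Subgroup.centralizer (Q : Set G)).subgroupOf T).index := by
  classical
  have hPe := hmax.1.1
  have hQP : Q ≤ P := reflTransGen_le _ _ hle
  have hQ : IsPGroup p Q := hPe.1.to_le hQP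
  obtain ⟨hQT, hCT, hTN, hTstab⟩ := stab_facts Q f T hT
  have hRT' := normalizerIn_le_stab hM P Q e f hPe hf hle T hT
  obtain ⟨R, hRdef⟩ : ∃ R : Subgroup G, R = P ⊓ Subgroup.normalizer (Q : Set G) := ⟨_, rfl⟩
  rw [← hRdef] at hdef hRT' ⊢
  have hRP : R ≤ P := by rw [hRdef]; exact inf_le_left
  have hRN : R ≤ Subgroup.normalizer (Q : Set G) := by rw [hRdef]; exact inf_le_right
  have hQR : Q ≤ R := by rw [hRdef]; exact le_inf hQP Subgroup.le_normalizer
  have hRp : IsPGroup p R := hPe.1.to_le hRP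
  have hRT : R ≤ T := hRT'
  letI : Fintype T := Fintype.ofFinite _
  haveI hCn : ((Subgroup.centralizer (Q : Set G)).subgroupOf T).Normal :=
    Subgroup.normal_subgroupOf_of_le_normalizer
      (hTN.trans (normalizer_le_normalizer_centralizer Q))
  -- a Sylow subgroup of the quotient above the image of `R`
  have hRbar : IsPGroup p ((R.subgroupOf T).map
      (QuotientGroup.mk' ((Subgroup.centralizer (Q : Set G)).subgroupOf T))) :=
    hRp.comap_subtype.map _
  obtain ⟨Sbar, hSbar⟩ := hRbar.exists_le_sylow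
  obtain ⟨S', hS'⟩ : ∃ S' : Subgroup T, S' = (Sbar : Subgroup _).comap
      (QuotientGroup.mk' ((Subgroup.centralizer (Q : Set G)).subgroupOf T)) := ⟨_, rfl⟩
  have hCS' : (Subgroup.centralizer (Q : Set G)).subgroupOf T ≤ S' := by
    rw [hS']
    intro c hc
    rw [Subgroup.mem_comap]
    have h1 : QuotientGroup.mk' ((Subgroup.centralizer (Q : Set G)).subgroupOf T) c = 1 :=
      (QuotientGroup.eq_one_iff c).mpr hc
    rw [h1]
    exact Subgroup.one_mem _
  have hRS' : R.subgroupOf T ≤ S' := by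
    rw [hS']
    intro r hr
    rw [Subgroup.mem_comap]
    exact hSbar ⟨r, hr, rfl⟩
  have hS'idx : ¬ p ∣ S'.index := by
    rw [hS', Subgroup.index_comap_of_surjective _ (QuotientGroup.mk'_surjective _)]
    exact Sbar.not_dvd_index
  obtain ⟨S, hS⟩ : ∃ S : Subgroup G, S = S'.map T.subtype := ⟨_, rfl⟩
  have hST : S ≤ T := by rw [hS]; exact Subgroup.map_subtype_le S'
  have hSsub : S.subgroupOf T = S' := by
    rw [hS]
    exact Subgroup.comap_map_eq_self_of_injective T.subtype_injective S'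
  have hCS : Subgroup.centralizer (Q : Set G) ≤ S := by
    intro c hc
    rw [hS]
    exact ⟨⟨c, hCT hc⟩, hCS' (Subgroup.mem_subgroupOf.mpr hc), rfl⟩
  have hRS : R ≤ S := by
    intro r hr
    rw [hS]
    exact ⟨⟨r, hRT hr⟩, hRS' (Subgroup.mem_subgroupOf.mpr hr), rfl⟩
  have hQS : Q ≤ S := hQR.trans hRS
  have hSN := hST.trans hTN
  have hSstab : ∀ s ∈ S, StabilizesBlock (Subgroup.centralizer (Q : Set G)) f s :=
    fun s hs => hTstab s (hST hs)
  have hidx : ∃ k : ℕ, ((Subgroup.centralizer (Q : Set G)).subgroupOf S).index = p ^ k := by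
    obtain ⟨k, hk⟩ := IsPGroup.iff_card.mp Sbar.isPGroup'
    refine ⟨k, ?_⟩
    show (Subgroup.centralizer (Q : Set G)).relIndex S = p ^ k
    rw [← Subgroup.relIndex_subgroupOf hST, hSsub, hS']
    have h1 : ((⊥ : Subgroup (T ⧸ (Subgroup.centralizer (Q : Set G)).subgroupOf T)).comap
        (QuotientGroup.mk' ((Subgroup.centralizer (Q : Set G)).subgroupOf T))).relIndex
        ((Sbar : Subgroup _).comap
          (QuotientGroup.mk' ((Subgroup.centralizer (Q : Set G)).subgroupOf T))) = p ^ k := by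
      rw [Subgroup.relIndex_comap,
        Subgroup.map_comap_eq_self_of_surjective (QuotientGroup.mk'_surjective _),
        Subgroup.relIndex_bot_left, hk]
    have h2 : (⊥ : Subgroup (T ⧸ (Subgroup.centralizer (Q : Set G)).subgroupOf T)).comap
        (QuotientGroup.mk' ((Subgroup.centralizer (Q : Set G)).subgroupOf T)) =
        (Subgroup.centralizer (Q : Set G)).subgroupOf T := by
      rw [MonoidHom.comap_bot, QuotientGroup.ker_mk']
    rw [h2] at h1
    exact h1
  letI : Fintype S := Fintype.ofFinite _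
  obtain ⟨βS, hβSB, hβS⟩ := exists_block_of_stable_subgroup hM Q hQ f hf S hQS hCS hSN hSstab
  -- the pair on `R`
  obtain ⟨eR, h1, h2⟩ := exists_between hM ⟨Q, f⟩ ⟨P, e⟩ hle hPe R hQR hRP
  have hReR : IsBrauerPair p M R eR := ⟨hRp, isPBlock_of_reflTransGen _ _ h2 hPe.2⟩
  have hrel : NormalSubpairRel p M ⟨Q, f⟩ ⟨R, eR⟩ :=
    normalSubpairRel_of_reflTransGen hM _ _ h1 hReR hRN
  obtain ⟨ρ, hρ, hQρ, hρe⟩ := exists_eq_upPair Q S hCS hQS ⟨R, eR⟩ hQR hRS
  have hρ_pair : IsBrauerPairOf p M βS ρ.1 ρ.2 :=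
    brauerPairOf_of_normalSubpairRel_upPair Q f S hCS βS hβSB hβS ρ hρ
      (by rw [← hρe]; exact hrel)
  obtain ⟨D, u, hmaxS, hleS⟩ := exists_maximal_above βS ρ.1 ρ.2 hρ_pair
  have hρD : ρ.1 ≤ D := reflTransGen_le _ _ hleS
  have hQD : Q.subgroupOf S ≤ D := hQρ.trans hρD
  have hμ : HCent Q S D := hCent_mono hρD hρ
  have hDdef : IsDefectGroup p M βS D := isDefectGroup_of_maximal hM βS D u hmaxS
  have hK := card_le_defect_of_pair hM Q f hQ hf T hQT hCT hTN hTstab β hβB hβ _ hdef S hQS hCS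
    hST βS hβS ⟨D, u⟩ hmaxS.1 hQD
  have hup := reflTransGen_upPair Q S hCS hQ hSN ρ ⟨D, u⟩ hleS hρ hμ
  rw [← hρe] at hup
  have hRle : R ≤ (upPair Q S hCS ⟨D, u⟩ hμ).1 := reflTransGen_le _ _ hup
  have hcardD : Nat.card (upPair Q S hCS ⟨D, u⟩ hμ).1 = Nat.card D :=
    card_upPair_fst Q S hCS hQS ⟨D, u⟩ hμ hQD
  have hReq : R = (upPair Q S hCS ⟨D, u⟩ hμ).1 :=
    Subgroup.eq_of_le_of_card_ge hRle (by
      rw [hcardD]
      exact hK.trans (card_subgroupOf_of_le hRT).le)
  have hSle : S ≤ R ⊔ Subgroup.centralizer (Q : Set G) := by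
    intro s hs
    obtain ⟨d, hd, c, hc, hsdc⟩ :=
      exists_mul_of_pquot hM Q f hf S hCS hSN hSstab hidx βS hβSB hβS D hDdef ⟨s, hs⟩
    have hdR : (d : G) ∈ R := by
      rw [hReq]
      exact (le_sup_right : D.map S.subtype ≤ _) ⟨d, hd, rfl⟩
    have e1 : s = (d : G) * (c : G) := congrArg (Subtype.val : S → G) hsdc
    rw [e1]
    exact Subgroup.mul_mem _ (Subgroup.mem_sup_left hdR) (Subgroup.mem_sup_right hc)
  have hSeq : S = R ⊔ Subgroup.centralizer (Q : Set G) := le_antisymm hSle (sup_le hRS hCS)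
  have h3 : R.subgroupOf T ⊔ (Subgroup.centralizer (Q : Set G)).subgroupOf T = S' := by
    rw [← Subgroup.subgroupOf_sup hRT hCT, ← hSeq, hSsub]
  rw [h3]
  exact hS'idx

/-- `Aut_F(Q)` is the image of the stabilizer `T` of `(Q, f)` under the conjugation action. -/
theorem autGroup_blockFus (hM : IsPModular p M) [Fact p.Prime]
    (B : Set (IrrCharacter G)) (P : Subgroup G)
    (e : Set (IrrCharacter (Subgroup.centralizer (P : Set G))))
    (hmax : IsMaximalBrauerPair p M B P e) (Q : Subgroup G)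
    (f : Set (IrrCharacter (Subgroup.centralizer (Q : Set G)))) (hf : IsPBlock M f)
    (hle : SubpairLE p M Q f P e) (T : Subgroup G)
    (hT : ∀ y : G, y ∈ T ↔ y ∈ Subgroup.normalizer (Q : Set G) ∧
      StabilizesBlock (Subgroup.centralizer (Q : Set G)) f y)
    (hTN : T ≤ Subgroup.normalizer (Q : Set G)) :
    (blockFus hM B P e hmax).autGroup Q = (conjAut Q T hTN).range := by
  have hPe := hmax.1.1
  have hQP : Q ≤ P := reflTransGen_le _ _ hle
  unfold FusionSystem.autGroup
  have hset : {α : MulAut Q | Q.subtype.comp α.toMonoidHom ∈ (blockFus hM B P e hmax).Hom Q} =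
      ((conjAut Q T hTN).range : Set (MulAut Q)) := by
    ext α
    constructor
    · rintro ⟨-, g, hg, hgP, f₀, hle₀, hle₀'⟩
      have hf₀ : IsPBlock M f₀ := isPBlock_of_subpairLE hle₀ hPe.2
      have hff : f₀ = f := subpairLE_unique hM P Q e f₀ f hPe hf₀ hle₀ hf hle
      rw [hff] at hle₀'
      have hgN : g ∈ Subgroup.normalizer (Q : Set G) := by
        apply mem_normalizer_of_conj_mem
        intro q hq
        rw [← hg ⟨q, hq⟩]
        exact (α ⟨q, hq⟩).2
      have hQg : Q.map (MulAut.conj g).toMonoidHom = Q := conj_map_eq_of_mem_normalizer Q g hgN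
      have hfix : conjPair g (⟨Q, f⟩ : BrauerPairIdx G) = ⟨Q, f⟩ :=
        eq_of_le_of_fst_eq hM _ _ ⟨P, e⟩ hPe hle₀' hle hQg
      have hgT : g ∈ T := (hT g).mpr ((conjPair_eq_self_iff Q f g).mp hfix)
      refine ⟨⟨g, hgT⟩, ?_⟩
      apply MulEquiv.ext
      intro q
      apply Subtype.ext
      exact (hg q).symm
    · rintro ⟨t, rfl⟩
      have hfix : conjPair (t : G) (⟨Q, f⟩ : BrauerPairIdx G) = ⟨Q, f⟩ :=
        (conjPair_eq_self_iff Q f t).mpr ((hT t).mp t.2)
      refine ⟨hQP, (t : G), fun u => rfl, ?_, f, hle, ?_⟩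
      · rw [conj_map_eq_of_mem_normalizer Q (t : G) (hTN t.2)]
        exact hQP
      · show Relation.ReflTransGen (NormalSubpairRel p M)
          (conjPair (t : G) (⟨Q, f⟩ : BrauerPairIdx G)) ⟨P, e⟩
        rw [hfix]
        exact hle
  rw [hset, Subgroup.closure_eq]

/-- **Fully automized**: if `N_P(Q)` is a defect group of the block of the stabilizer of
`(Q, f) ≤ (P, e)`, then `Aut_P(Q)` is a Sylow `p`-subgroup of `Aut_F(Q)`. -/
theorem isFullyAutomized_of_defect (hM : IsPModular p M) [Fact p.Prime]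
    (B : Set (IrrCharacter G)) (P : Subgroup G)
    (e : Set (IrrCharacter (Subgroup.centralizer (P : Set G))))
    (hmax : IsMaximalBrauerPair p M B P e) (Q : Subgroup G)
    (f : Set (IrrCharacter (Subgroup.centralizer (Q : Set G)))) (hf : IsPBlock M f)
    (hle : SubpairLE p M Q f P e) (T : Subgroup G)
    (hT : ∀ y : G, y ∈ T ↔ y ∈ Subgroup.normalizer (Q : Set G) ∧
      StabilizesBlock (Subgroup.centralizer (Q : Set G)) f y)
    (β : Set (IrrCharacter T)) (hβB : IsPBlock M β)
    (hβ : ∀ t : T, blockCoeff β t =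
      subgroupBlockCoeff (Subgroup.centralizer (Q : Set G)) f (t : G))
    (hdef : IsDefectGroup p M β ((P ⊓ Subgroup.normalizer (Q : Set G)).subgroupOf T)) :
    (blockFus hM B P e hmax).IsFullyAutomized p Q := by
  have hPe := hmax.1.1
  have hQP : Q ≤ P := reflTransGen_le _ _ hle
  obtain ⟨hQT, hCT, hTN, hTstab⟩ := stab_facts Q f T hT
  have hRT := normalizerIn_le_stab hM P Q e f hPe hf hle T hT
  refine ⟨hQP, ?_⟩
  have hA := autGroup_blockFus hM B P e hmax Q f hf hle T hT hTN
  have hI := autInducedBy_eq P Q T hTN hRT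
  have hp1 : IsPGroup p ((autInducedBy P Q).subgroupOf
      ((blockFus hM B P e hmax).autGroup Q)) := by
    rw [hI]
    exact ((hPe.1.to_le inf_le_left).comap_subtype.map _).comap_subtype
  have hp2 : ¬ p ∣ ((autInducedBy P Q).subgroupOf
      ((blockFus hM B P e hmax).autGroup Q)).index := by
    show ¬ p ∣ (autInducedBy P Q).relIndex ((blockFus hM B P e hmax).autGroup Q)
    rw [hI, hA, relIndex_map_range, conjAut_ker]
    exact not_dvd_index_normalizer_sup hM B P e hmax Q f hf hle T hT β hβB hβ hdef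
  exact ⟨hp1.toSylow hp2, IsPGroup.toSylow_coe hp1 hp2⟩

end Sat2

end Cfsg.Agent.Lib.Helper81
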