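import Mathlib
import Cfsg.Prelude.Def_Blocks
import Cfsg.Prelude.Def_BrauerPairs
import Cfsg.Prelude.Def_BlockFusion
import Cfsg.Agent.Lib.Helper81.BrSat2

/-!
# The fusion system of a block is saturated (helper81)

`isReceptive_of_defect`: if `N_P(Q)` is a defect group of the block of the stabilizer of
`(Q, f) ≤ (P, e)`, then `Q` is receptive.  `blockFus_isSaturated`: the fusion system of a block
is saturated.
-/

set_option autoImplicit false
set_option linter.style.haveILetI false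

namespace Cfsg.Agent.Lib.Helper81

open Cfsg Cfsg.Agent.Lib.Helper4 Cfsg.Agent.Lib.Helper21 Cfsg.Agent.Lib.Helper22
open scoped ComplexConjugate

section Sat3

variable {G : Type*} [Group G] [Fintype G] {p : ℕ} {M : Ideal AlgInt}

/-- **Receptive**: if `N_P(Q)` is a defect group of the block of the stabilizer of
`(Q, f) ≤ (P, e)`, then `Q` is receptive in the fusion system of the block. -/
theorem isReceptive_of_defect (hM : IsPModular p M) [Fact p.Prime]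
    (B : Set (IrrCharacter G)) (P : Subgroup G)
    (e : Set (IrrCharacter (Subgroup.centralizer (P : Set G))))
    (hmax : IsMaximalBrauerPair p M B P e) (Q : Subgroup G)
    (f : Set (IrrCharacter (Subgroup.centralizer (Q : Set G)))) (hf : IsPBlock M f)
    (hle : SubpairLE p M Q f P e) (T : Subgroup G)
    (hT : ∀ y : G, y ∈ T ↔ y ∈ Subgroup.normalizer (Q : Set G) ∧
      StabilizesBlock (Subgroup.centralizer (Q : Set G)) f y)
    (β : Set (IrrCharacter T)) (hβB : IsPBlock M β)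
    (hβ : ∀ t : T, blockCoeff β t =
      subgroupBlockCoeff (Subgroup.centralizer (Q : Set G)) f (t : G))
    (hdef : IsDefectGroup p M β ((P ⊓ Subgroup.normalizer (Q : Set G)).subgroupOf T)) :
    (blockFus hM B P e hmax).IsReceptive Q := by
  classical
  have hPe := hmax.1.1
  have hQP : Q ≤ P := reflTransGen_le _ _ hle
  have hQ : IsPGroup p Q := hPe.1.to_le hQP
  obtain ⟨hQT, hCT, hTN, hTstab⟩ := stab_facts Q f T hT
  have hRT' := normalizerIn_le_stab hM P Q e f hPe hf hle T hT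
  refine ⟨hQP, fun R₀ φ hφ hrange => ?_⟩
  obtain ⟨hR₀P, g, hg, hgP, f₀, hle₀, hle₀'⟩ := hφ
  have hr : φ.range = R₀.map (MulAut.conj g).toMonoidHom := range_eq_conj_map R₀ g φ hg
  have hR₀g : R₀.map (MulAut.conj g).toMonoidHom = Q := hr.symm.trans hrange
  have hfix : conjPair g (⟨R₀, f₀⟩ : BrauerPairIdx G) = ⟨Q, f⟩ :=
    eq_of_le_of_fst_eq hM _ _ ⟨P, e⟩ hPe hle₀' hle hR₀g
  -- `R = N_P(Q)` and `L = R C_G(Q)`
  obtain ⟨R, hRdef⟩ : ∃ R : Subgroup G, R = P ⊓ Subgroup.normalizer (Q : Set G) := ⟨_, rfl⟩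
  rw [← hRdef] at hdef hRT'
  have hRP : R ≤ P := by rw [hRdef]; exact inf_le_left
  have hRN : R ≤ Subgroup.normalizer (Q : Set G) := by rw [hRdef]; exact inf_le_right
  have hQR : Q ≤ R := by rw [hRdef]; exact le_inf hQP Subgroup.le_normalizer
  have hRp : IsPGroup p R := hPe.1.to_le hRP
  have hRT : R ≤ T := hRT'
  -- the extender
  generalize hN : FusionSystem.extender P R₀ φ = N
  have hgen : ∀ γ : G, γ ∈ P → γ ∈ Subgroup.normalizer (R₀ : Set G) →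
      (∃ h ∈ P, ∀ (x : R₀) (hx : γ * (x : G) * γ⁻¹ ∈ R₀),
        φ ⟨γ * x * γ⁻¹, hx⟩ = h * φ x * h⁻¹) → γ ∈ N := by
    intro γ h1 h2 h3
    rw [← hN]
    exact Subgroup.subset_closure ⟨h1, h2, h3⟩
  have hNle : ∀ K : Subgroup G, (∀ γ : G, γ ∈ P → γ ∈ Subgroup.normalizer (R₀ : Set G) →
      (∃ h ∈ P, ∀ (x : R₀) (hx : γ * (x : G) * γ⁻¹ ∈ R₀),
        φ ⟨γ * x * γ⁻¹, hx⟩ = h * φ x * h⁻¹) → γ ∈ K) → N ≤ K := by
    intro K hK
    rw [← hN]
    unfold FusionSystem.extender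
    rw [Subgroup.closure_le]
    rintro γ ⟨h1, h2, h3⟩
    exact hK γ h1 h2 h3
  have hNP : N ≤ P := hNle P fun γ h1 _ _ => h1
  have hNnorm : N ≤ Subgroup.normalizer (R₀ : Set G) := hNle _ fun γ _ h2 _ => h2
  have hR₀N : R₀ ≤ N := by
    intro γ hγ
    refine hgen γ (hR₀P hγ) (Subgroup.le_normalizer hγ)
      ⟨g * γ * g⁻¹, hgP ⟨γ, hγ, rfl⟩, fun x hx => ?_⟩
    rw [hg, hg]
    show g * (γ * (x : G) * γ⁻¹) * g⁻¹ = g * γ * g⁻¹ * (g * (x : G) * g⁻¹) * (g * γ * g⁻¹)⁻¹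
    group
  have hNL : N.map (MulAut.conj g).toMonoidHom ≤ R ⊔ Subgroup.centralizer (Q : Set G) := by
    rw [Subgroup.map_le_iff_le_comap]
    apply hNle
    rintro γ hγP hγN ⟨h, hhP, hh⟩
    rw [Subgroup.mem_comap]
    show g * γ * g⁻¹ ∈ R ⊔ Subgroup.centralizer (Q : Set G)
    have hact : ∀ q ∈ Q, (g * γ * g⁻¹) * q * (g * γ * g⁻¹)⁻¹ = h * q * h⁻¹ := by
      intro q hq
      have hx : g⁻¹ * q * g ∈ R₀ := by
        rw [← hR₀g, mem_conj_map_iff] at hq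
        exact hq
      have hx' : γ * (g⁻¹ * q * g) * γ⁻¹ ∈ R₀ :=
        (Subgroup.mem_normalizer_iff.mp hγN _).mp hx
      have h1 := hh ⟨g⁻¹ * q * g, hx⟩ hx'
      rw [hg, hg] at h1
      have e1 : g * (g⁻¹ * q * g) * g⁻¹ = q := by group
      have h2 : g * (γ * (g⁻¹ * q * g) * γ⁻¹) * g⁻¹ = h * (g * (g⁻¹ * q * g) * g⁻¹) * h⁻¹ := h1
      rw [e1] at h2
      rw [← h2]
      group
    have hγ'Q : ∀ q ∈ Q, (g * γ * g⁻¹) * q * (g * γ * g⁻¹)⁻¹ ∈ Q := by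
      intro q hq
      have hx : g⁻¹ * q * g ∈ R₀ := by
        rw [← hR₀g, mem_conj_map_iff] at hq
        exact hq
      have hx' : γ * (g⁻¹ * q * g) * γ⁻¹ ∈ R₀ :=
        (Subgroup.mem_normalizer_iff.mp hγN _).mp hx
      have h3 : g * (γ * (g⁻¹ * q * g) * γ⁻¹) * g⁻¹ ∈ R₀.map (MulAut.conj g).toMonoidHom :=
        ⟨_, hx', rfl⟩
      rw [hR₀g] at h3
      have e2 : g * γ * g⁻¹ * q * (g * γ * g⁻¹)⁻¹ = g * (γ * (g⁻¹ * q * g) * γ⁻¹) * g⁻¹ := by
        group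
      rw [e2]
      exact h3
    have hhN : h ∈ Subgroup.normalizer (Q : Set G) := by
      apply mem_normalizer_of_conj_mem
      intro q hq
      rw [← hact q hq]
      exact hγ'Q q hq
    have hhR : h ∈ R := by rw [hRdef]; exact ⟨hhP, hhN⟩
    have hc : h⁻¹ * (g * γ * g⁻¹) ∈ Subgroup.centralizer (Q : Set G) := by
      rw [Subgroup.mem_centralizer_iff]
      intro q hq
      have h1 := hact q hq
      calc q * (h⁻¹ * (g * γ * g⁻¹)) = h⁻¹ * (h * q * h⁻¹) * (g * γ * g⁻¹) := by group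
        _ = h⁻¹ * ((g * γ * g⁻¹) * q * (g * γ * g⁻¹)⁻¹) * (g * γ * g⁻¹) := by rw [h1]
        _ = h⁻¹ * (g * γ * g⁻¹) * q := by group
    have e3 : g * γ * g⁻¹ = h * (h⁻¹ * (g * γ * g⁻¹)) := by group
    rw [e3]
    exact Subgroup.mul_mem _ (Subgroup.mem_sup_left hhR) (Subgroup.mem_sup_right hc)
  -- the pair on `N`
  obtain ⟨eN, h1N, h2N⟩ := exists_between hM ⟨R₀, f₀⟩ ⟨P, e⟩ hle₀ hPe N hR₀N hNP
  have hNeN : IsBrauerPair p M N eN :=
    ⟨hPe.1.to_le hNP, isPBlock_of_reflTransGen _ _ h2N hPe.2⟩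
  have hrelN : NormalSubpairRel p M ⟨R₀, f₀⟩ ⟨N, eN⟩ :=
    normalSubpairRel_of_reflTransGen hM _ _ h1N hNeN hNnorm
  have hrel' : NormalSubpairRel p M ⟨Q, f⟩ (conjPair g ⟨N, eN⟩) := by
    have h := normalSubpairRel_conjPair g _ _ hrelN
    rwa [hfix] at h
  -- the group `L`
  obtain ⟨L, hL⟩ : ∃ L : Subgroup G, L = R ⊔ Subgroup.centralizer (Q : Set G) := ⟨_, rfl⟩
  rw [← hL] at hNL
  have hRL : R ≤ L := by rw [hL]; exact le_sup_left
  have hCL : Subgroup.centralizer (Q : Set G) ≤ L := by rw [hL]; exact le_sup_right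
  have hQL : Q ≤ L := hQR.trans hRL
  have hLT : L ≤ T := by rw [hL]; exact sup_le hRT hCT
  have hLN := hLT.trans hTN
  have hLstab : ∀ t ∈ L, StabilizesBlock (Subgroup.centralizer (Q : Set G)) f t :=
    fun t ht => hTstab t (hLT ht)
  letI : Fintype L := Fintype.ofFinite _
  obtain ⟨βL, hβLB, hβL⟩ := exists_block_of_stable_subgroup hM Q hQ f hf L hQL hCL hLN hLstab
  obtain ⟨νL, hνL, hQνL, hνLe⟩ :=
    exists_eq_upPair Q L hCL hQL (conjPair g ⟨N, eN⟩) hrel'.2.2.1 hNL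
  have hνL_pair : IsBrauerPairOf p M βL νL.1 νL.2 :=
    brauerPairOf_of_normalSubpairRel_upPair Q f L hCL βL hβLB hβL νL hνL
      (by rw [← hνLe]; exact hrel')
  -- the pair on `R`
  obtain ⟨eR, h1R, h2R⟩ := exists_between hM ⟨Q, f⟩ ⟨P, e⟩ hle hPe R hQR hRP
  have hReR : IsBrauerPair p M R eR := ⟨hRp, isPBlock_of_reflTransGen _ _ h2R hPe.2⟩
  have hrelR : NormalSubpairRel p M ⟨Q, f⟩ ⟨R, eR⟩ :=
    normalSubpairRel_of_reflTransGen hM _ _ h1R hReR hRN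
  obtain ⟨ρL, hρL, hQρL, hρLe⟩ := exists_eq_upPair Q L hCL hQL ⟨R, eR⟩ hQR hRL
  have hρL_pair : IsBrauerPairOf p M βL ρL.1 ρL.2 :=
    brauerPairOf_of_normalSubpairRel_upPair Q f L hCL βL hβLB hβL ρL hρL
      (by rw [← hρLe]; exact hrelR)
  have hρL_card : Nat.card ρL.1 = Nat.card R := by
    rw [← card_upPair_fst Q L hCL hQL ρL hρL hQρL, ← hρLe]
  have hρL_max : IsMaximalBrauerPair p M βL ρL.1 ρL.2 := by
    refine ⟨hρL_pair, fun D' u' hD' hle' => ?_⟩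
    have hle'' : ρL.1 ≤ D' := reflTransGen_le _ _ hle'
    have hK := card_le_defect_of_pair hM Q f hQ hf T hQT hCT hTN hTstab β hβB hβ _ hdef L hQL hCL
      hLT βL hβL ⟨D', u'⟩ hD' (hQρL.trans hle'')
    have hK' : Nat.card D' ≤ Nat.card ρL.1 := by
      rw [hρL_card]
      exact hK.trans (card_subgroupOf_of_le hRT).le
    exact (Subgroup.eq_of_le_of_card_ge hle'' hK').symm
  -- conjugate into the maximal pair inside `L`
  obtain ⟨l, hl⟩ := exists_conj_subpairLE_maximal hM βL ρL.1 νL.1 ρL.2 νL.2 hρL_max hνL_pair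
  have hl' : Relation.ReflTransGen (NormalSubpairRel p M) (conjPair l νL) ρL := hl
  have hup := reflTransGen_upPair Q L hCL hQ hLN (conjPair l νL) ρL hl' (hCent_conj hLN hνL l) hρL
  rw [← conjPair_upPair Q L hCL hLN νL hνL l (hCent_conj hLN hνL l), ← hνLe, ← hρLe,
    conjPair_mul] at hup
  have hupP : Relation.ReflTransGen (NormalSubpairRel p M) (conjPair ((l : G) * g) ⟨N, eN⟩)
      ⟨P, e⟩ := hup.trans h2R
  -- decompose `l = r c`
  have hRnC : R ≤ Subgroup.normalizer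
      ((Subgroup.centralizer (Q : Set G) : Subgroup G) : Set G) :=
    hRN.trans (normalizer_le_normalizer_centralizer Q)
  have hlinv : (l : G)⁻¹ ∈ Subgroup.centralizer (Q : Set G) ⊔ R := by
    rw [sup_comm, ← hL]
    exact L.inv_mem l.2
  obtain ⟨c₀, hc₀, r₀, hr₀, hcr⟩ := mem_sup_of_le_normalizer _ R hRnC _ hlinv
  have hl_eq : (l : G) = r₀⁻¹ * c₀⁻¹ := by
    rw [← mul_inv_rev, ← hcr, inv_inv]
  have hfinal : Relation.ReflTransGen (NormalSubpairRel p M) (conjPair (c₀⁻¹ * g) ⟨N, eN⟩)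
      ⟨P, e⟩ := by
    have h3 := reflTransGen_conjPair r₀ _ _ hupP
    rw [conjPair_mul, conjPair_eq_self_of_mem P e r₀ (hRP hr₀), hl_eq] at h3
    have e4 : r₀ * (r₀⁻¹ * c₀⁻¹ * g) = c₀⁻¹ * g := by group
    rwa [e4] at h3
  refine ⟨conjHom N (c₀⁻¹ * g), ⟨hNP, c₀⁻¹ * g, fun u => rfl, reflTransGen_le _ _ hfinal, eN, h2N,
    hfinal⟩, fun x hxP hxN => ?_⟩
  rw [hg]
  show c₀⁻¹ * g * x * (c₀⁻¹ * g)⁻¹ = g * x * g⁻¹
  have hxQ : g * x * g⁻¹ ∈ Q := by
    rw [← hR₀g]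
    exact ⟨x, hxP, rfl⟩
  have hcomm := Subgroup.mem_centralizer_iff.mp (Subgroup.inv_mem _ hc₀) (g * x * g⁻¹) hxQ
  calc c₀⁻¹ * g * x * (c₀⁻¹ * g)⁻¹ = c₀⁻¹ * (g * x * g⁻¹) * c₀ := by group
    _ = (g * x * g⁻¹) * c₀⁻¹ * c₀ := by rw [hcomm]
    _ = g * x * g⁻¹ := by group

/-- **The fusion system of a block is saturated.** -/
theorem blockFus_isSaturated (hM : IsPModular p M) [Fact p.Prime]
    (B : Set (IrrCharacter G)) (P : Subgroup G)
    (e : Set (IrrCharacter (Subgroup.centralizer (P : Set G))))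
    (hmax : IsMaximalBrauerPair p M B P e) : (blockFus hM B P e hmax).IsSaturated p := by
  intro Q hQP
  have hPe := hmax.1.1
  obtain ⟨f, hf, hle⟩ := exists_subpairLE hM P Q e hPe hQP
  obtain ⟨x, hx, hx2⟩ := exists_conj_norm_defectGroup hM B P Q e f hmax hf hle
    (stabSubgroup Q f) (mem_stabSubgroup Q f)
  obtain ⟨β, hβB, hβ, hdef⟩ := hx2 (stabSubgroup (Q.map (MulAut.conj x).toMonoidHom)
    (conjBlock Q x f)) (mem_stabSubgroup _ _)
  have hf' : IsPBlock M (conjBlock Q x f) := isPBlock_of_subpairLE hx hPe.2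
  refine ⟨Q.map (MulAut.conj x).toMonoidHom, ?_,
    isFullyAutomized_of_defect hM B P e hmax _ _ hf' hx _ (mem_stabSubgroup _ _) β hβB hβ hdef,
    isReceptive_of_defect hM B P e hmax _ _ hf' hx _ (mem_stabSubgroup _ _) β hβB hβ hdef⟩
  exact ⟨conjHom Q x, ⟨hQP, x, fun u => rfl, reflTransGen_le _ _ hx, f, hle, hx⟩,
    conjHom_range Q x⟩

end Sat3

end Cfsg.Agent.Lib.Helper81
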