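import Mathlib
import Cfsg.Prelude.Def_GeometricClasses
import Cfsg.Prelude.Def_ClassicalGeometry
import Cfsg.Agent.Lib.Helper98.F75Defs

set_option autoImplicit false

universe u

namespace Cfsg.Agent.Lib.Helper98.F75

open Matrix Polynomial

/-- the factors with `k ∣ j + 1` are the factors of the small product -/
theorem f75arith_prod {q k e : ℕ} (hk : 0 < k) :
    ∏ j ∈ (Finset.range (k * e)).filter (fun j => k ∣ j + 1), (q ^ (2 * (j + 1)) - 1) =
      ∏ j ∈ Finset.range e, ((q ^ k) ^ (2 * (j + 1)) - 1) := by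
  symm
  refine Finset.prod_bij (fun j' _ => k * (j' + 1) - 1) ?_ ?_ ?_ ?_
  · intro j' hj'
    rw [Finset.mem_range] at hj'
    rw [Finset.mem_filter, Finset.mem_range]
    have h1 : k * (j' + 1) ≤ k * e := Nat.mul_le_mul_left k (by omega)
    have h2 : 1 ≤ k * (j' + 1) := Nat.mul_pos hk (by omega)
    refine ⟨by omega, ?_⟩
    rw [Nat.sub_add_cancel h2]
    exact dvd_mul_right _ _
  · intro a ha b hb hab
    have h2 : 1 ≤ k * (a + 1) := Nat.mul_pos hk (by omega)
    have h3 : 1 ≤ k * (b + 1) := Nat.mul_pos hk (by omega)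
    have h4 : k * (a + 1) = k * (b + 1) := by
      omega
    have := Nat.eq_of_mul_eq_mul_left hk h4
    omega
  · intro j hj
    rw [Finset.mem_filter, Finset.mem_range] at hj
    obtain ⟨hjd, m, hm⟩ := hj
    have hm1 : 1 ≤ m := by
      rcases Nat.eq_zero_or_pos m with h0 | h0
      · rw [h0] at hm; omega
      · exact h0
    have hme : m ≤ e := by
      by_contra hlt
      have : k * (e + 1) ≤ k * m := Nat.mul_le_mul_left k (by omega)
      have h5 : k * (e + 1) = k * e + k := by ring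
      omega
    refine ⟨m - 1, Finset.mem_range.mpr (by omega), ?_⟩
    rw [Nat.sub_add_cancel hm1, ← hm]
    omega
  · intro j' _
    have h2 : 1 ≤ k * (j' + 1) := Nat.mul_pos hk (by omega)
    rw [Nat.sub_add_cancel h2, ← pow_mul]
    congr 2
    ring

/-! ### F75-ARITH -/
theorem index_arith {q d k e r : ℕ} (hq : 1 < q) (hk : k.Prime) (hde : d = k * e)
    (hr : r.Prime) (hrq : ¬ r ∣ q) (c : ℕ)
    (hc : q ^ (d ^ 2) * ∏ j ∈ Finset.range d, (q ^ (2 * (j + 1)) - 1) =
      ((q ^ k) ^ (e ^ 2) * ∏ j ∈ Finset.range e, ((q ^ k) ^ (2 * (j + 1)) - 1)) * c)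
    (hrc : r ∣ c) : delta q r ≤ 2 * d ∧ ¬ 2 * k ∣ delta q r := by
  classical
  have : Fact r.Prime := ⟨hr⟩
  subst hde
  have hpos : ∀ n : ℕ, 0 < n → 0 < q ^ n - 1 := by
    intro n hn
    have : 1 < q ^ n := Nat.one_lt_pow hn.ne' hq
    omega
  have hsplit := Finset.prod_filter_mul_prod_filter_not (Finset.range (k * e))
    (fun j => k ∣ j + 1) (fun j => q ^ (2 * (j + 1)) - 1)
  rw [f75arith_prod hk.pos] at hsplit
  set P' := ∏ j ∈ Finset.range e, ((q ^ k) ^ (2 * (j + 1)) - 1) with hP'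
  set P'' := ∏ j ∈ (Finset.range (k * e)).filter (fun j => ¬ k ∣ j + 1),
    (q ^ (2 * (j + 1)) - 1) with hP''
  have hP'pos : 0 < P' := by
    rw [hP']
    refine Finset.prod_pos (fun j _ => ?_)
    rw [← pow_mul]
    exact hpos _ (Nat.mul_pos hk.pos (by omega))
  rw [← hsplit] at hc
  have hc' : P' * (q ^ ((k * e) ^ 2) * P'') = P' * ((q ^ k) ^ (e ^ 2) * c) := by
    calc P' * (q ^ ((k * e) ^ 2) * P'') = q ^ ((k * e) ^ 2) * (P' * P'') := by ring
      _ = (q ^ k) ^ (e ^ 2) * P' * c := hc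
      _ = P' * ((q ^ k) ^ (e ^ 2) * c) := by ring
  have hc'' := Nat.eq_of_mul_eq_mul_left hP'pos hc'
  have hdvd : r ∣ q ^ ((k * e) ^ 2) * P'' := by
    rw [hc'']
    exact Dvd.dvd.mul_left hrc _
  have hdvd2 : r ∣ P'' := by
    rcases (Nat.Prime.dvd_mul hr).mp hdvd with h | h
    · exact absurd (hr.dvd_of_dvd_pow h) hrq
    · exact h
  rw [hP'', Prime.dvd_finsetProd_iff hr.prime] at hdvd2
  obtain ⟨j, hj, hrj⟩ := hdvd2
  rw [Finset.mem_filter, Finset.mem_range] at hj
  obtain ⟨hjd, hkj⟩ := hj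
  have hpow : (q : ZMod r) ^ (2 * (j + 1)) = 1 := by
    have h0 : ((q ^ (2 * (j + 1)) - 1 : ℕ) : ZMod r) = 0 :=
      (ZMod.natCast_eq_zero_iff _ r).mpr hrj
    have h1 : 1 ≤ q ^ (2 * (j + 1)) := Nat.one_le_pow _ _ (by omega)
    rw [Nat.cast_sub h1, Nat.cast_pow, Nat.cast_one, sub_eq_zero] at h0
    exact h0
  have hord : orderOf (q : ZMod r) ∣ 2 * (j + 1) := orderOf_dvd_of_pow_eq_one hpow
  have hδ : delta q r ∣ 2 * (j + 1) := by
    unfold delta
    split_ifs with he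
    · exact hord
    · have hodd : Odd (orderOf (q : ZMod r)) := Nat.not_even_iff_odd.mp he
      have hcop : Nat.Coprime (orderOf (q : ZMod r)) 2 := (Nat.coprime_two_right).mpr hodd
      exact Nat.mul_dvd_mul_left 2 (hcop.dvd_of_dvd_mul_left hord)
  constructor
  · have := Nat.le_of_dvd (by omega) hδ
    omega
  · intro h2k
    exact hkj (Nat.dvd_of_mul_dvd_mul_left (by norm_num : 0 < 2) (dvd_trans h2k hδ))

end Cfsg.Agent.Lib.Helper98.F75
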