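import Mathlib
import Cfsg.Prelude.Def_GeometricClasses
import Cfsg.Prelude.Def_ClassicalGeometry
import Cfsg.Agent.Lib.Helper98.F75Defs

set_option autoImplicit false

universe u

namespace Cfsg.Agent.Lib.Helper98.F75

open Matrix Polynomial

/-! ### F75-DELTALE -/
theorem delta_le {q r : ℕ} (hr : r.Prime) (hr2 : r ≠ 2) (hrq : ¬ r ∣ q) : delta q r ≤ r - 1 := by
  have : Fact r.Prime := ⟨hr⟩
  have hq0 : (q : ZMod r) ≠ 0 := by
    intro h
    exact hrq ((ZMod.natCast_eq_zero_iff q r).mp h)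
  have hdvd : orderOf (q : ZMod r) ∣ r - 1 := ZMod.orderOf_dvd_card_sub_one hq0
  have hr1 : 0 < r - 1 := by have := hr.two_le; omega
  unfold delta
  split_ifs with he
  · exact Nat.le_of_dvd hr1 hdvd
  · have hodd : Odd (orderOf (q : ZMod r)) := Nat.not_even_iff_odd.mp he
    have h2 : 2 ∣ r - 1 := by
      rcases hr.eq_two_or_odd with h | h
      · exact absurd h hr2
      · omega
    have hcop : Nat.Coprime 2 (orderOf (q : ZMod r)) :=
      (Nat.coprime_two_left).mpr hodd
    exact Nat.le_of_dvd hr1 (Nat.Coprime.mul_dvd_of_dvd_of_dvd hcop h2 hdvd)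

end Cfsg.Agent.Lib.Helper98.F75
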