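import Mathlib
import Cfsg.Agent.Lib.Helper72.PQDefs

/-!
# S4306 piece PQ-IAB (helper81, for helper72): type I, `Q` abelian is contradictory
-/

set_option autoImplicit false

open Cfsg.Agent.Lib.Helper72.PQ
open scoped commutatorElement

namespace Cfsg.Agent.Lib.Helper81.PQ

universe u

private theorem cm {Γ : Type u} [Group Γ] {H : Subgroup Γ} {g y : Γ}
    (hg : g ∈ Subgroup.normalizer (H : Set Γ)) (hy : y ∈ H) : g * y * g⁻¹ ∈ H :=
  (Subgroup.mem_normalizer_iff.mp hg y).mp hy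

private theorem cm' {Γ : Type u} [Group Γ] {H : Subgroup Γ} {g y : Γ}
    (hg : g ∈ Subgroup.normalizer (H : Set Γ)) (hy : y ∈ H) : g⁻¹ * y * g ∈ H := by
  have h := (Subgroup.mem_normalizer_iff.mp (Subgroup.inv_mem _ hg) y).mp hy
  simpa using h

theorem iab (h1 : IabXStmt.{u}) (h2 : WExStmt.{u}) (h3 : WStabStmt.{u}) (h4 : LangQStmt.{u})
    (h5 : L1Stmt.{u}) (h6 : L2Stmt.{u}) (h7 : AStrStmt.{u}) : IabStmt.{u} := by
  intro Γ _ _ p ℓ r q s A F V Q R tw hI hQab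
  classical
  obtain ⟨hRR, -, hfpfT, hlift⟩ := h5 Γ p ℓ r q s A F V Q R tw
  obtain ⟨-, -, hpowZ, hZbot⟩ := h6 Γ p ℓ r q s A F V Q R tw
  obtain ⟨⟨t₀, ht₀A, ht₀F⟩, hord, -, -⟩ := h7 Γ p ℓ A F tw.frob
  have hZ : cz Q R = ⊥ := hZbot hQab
  have hp := tw.frob.hp
  have hℓ := tw.frob.hℓ
  have hq := tw.hq
  have hr := tw.hr
  have hs := tw.hs
  have hQexp : ∀ b ∈ Q, b ^ q = 1 := by
    intro b hb
    have h := hpowZ b hb
    rw [hZ] at h
    exact Subgroup.mem_bot.mp h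
  haveI : Fact r.Prime := ⟨hr⟩
  haveI : Fact q.Prime := ⟨hq⟩
  obtain ⟨kV, hkV⟩ := IsPGroup.iff_card.mp tw.hVr
  obtain ⟨kQ, hkQ⟩ := IsPGroup.iff_card.mp tw.hQq
  have hVq : (Nat.card V).Coprime q := by
    rw [hkV]; exact Nat.Coprime.pow_left _ ((Nat.coprime_primes hr hq).mpr (Ne.symm tw.hqr))
  have hcAV : (Nat.card A).Coprime (Nat.card V) := by
    rw [tw.frob.hA, hkV]
    exact Nat.Coprime.pow_right _ (Nat.Coprime.mul_left
      ((Nat.coprime_primes hp hr).mpr tw.hpr) ((Nat.coprime_primes hℓ hr).mpr tw.hℓr))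
  have hcQV : (Nat.card Q).Coprime (Nat.card V) := by
    rw [hkQ, hkV]
    exact Nat.Coprime.pow _ _ ((Nat.coprime_primes hq hr).mpr tw.hqr)
  have hcAQ : (Nat.card A).Coprime (Nat.card Q) := by
    rw [tw.frob.hA, hkQ]
    exact Nat.Coprime.pow_right _ (Nat.Coprime.mul_left
      ((Nat.coprime_primes hp hq).mpr tw.hpq) ((Nat.coprime_primes hℓ hq).mpr tw.hℓq))
  have hCQF : ∀ b ∈ Q, (∀ a ∈ F, a * b = b * a) → b = 1 := by
    intro b hb hbF
    have hbZ : b ∈ cz Q R := by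
      rw [mem_cz]
      refine ⟨hb, fun x hx => ?_⟩
      obtain ⟨n, hn, hxn⟩ := hlift hI x hx
      rw [mem_cz] at hn
      have e1 : (x * n) * b = b * (x * n) := tw.hnQR b hb (x * n) (R.mul_mem hx hn.1) hbF hxn
      have e2 : b * n = n * b := hn.2 b hb
      have e3 : x * b * n = b * x * n := by
        calc x * b * n = x * (b * n) := by group
          _ = x * (n * b) := by rw [e2]
          _ = (x * n) * b := by group
          _ = b * (x * n) := e1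
          _ = b * x * n := by group
      exact mul_right_cancel e3
    rw [hZ] at hbZ
    exact Subgroup.mem_bot.mp hbZ
  obtain ⟨Y, hYQ, hcard, v, hvV, hv1, hvY⟩ :=
    h2 Γ q Q V hq hQab hQexp tw.hVc tw.hQV hVq tw.hV1 tw.hE1
  obtain ⟨t, htA, htt₀, htY, htQ, -⟩ := h3 Γ p ℓ q A F Q V Y tw.frob hq tw.hVc tw.hAV tw.hQV
    tw.hAQ hQab hYQ hcard hcAV hcQV hcAQ tw.hE1 tw.hfixV hCQF ⟨v, hvV, hv1, hvY⟩ t₀ ht₀A ht₀F
  have htF : t ∉ F := by
    intro h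
    apply ht₀F
    have e : t₀ = t * (t₀⁻¹ * t)⁻¹ := by group
    rw [e]
    exact F.mul_mem h (F.inv_mem htt₀)
  have htQn := tw.hAQ htA
  have htRn := tw.hAR htA
  obtain ⟨RY, hRY⟩ : ∃ RY : Subgroup Γ,
      ∀ x, x ∈ RY ↔ (x ∈ R ∧ ∀ y ∈ Q, x * y * x⁻¹ * y⁻¹ ∈ Y) := by
    refine ⟨{ carrier := {x | x ∈ R ∧ ∀ y ∈ Q, x * y * x⁻¹ * y⁻¹ ∈ Y}
              one_mem' := ⟨R.one_mem, fun y _ => by simp⟩
              mul_mem' := ?_
              inv_mem' := ?_ }, fun x => Iff.rfl⟩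
    · rintro x x' ⟨hx, hxY⟩ ⟨hx', hx'Y⟩
      refine ⟨R.mul_mem hx hx', fun y hy => ?_⟩
      have c1 := hx'Y y hy
      have c2 := hxY _ (hYQ c1)
      have c3 := hxY y hy
      have e : x * x' * y * (x * x')⁻¹ * y⁻¹
          = (x * (x' * y * x'⁻¹ * y⁻¹) * x⁻¹ * (x' * y * x'⁻¹ * y⁻¹)⁻¹)
            * (x' * y * x'⁻¹ * y⁻¹) * (x * y * x⁻¹ * y⁻¹) := by group
      rw [e]
      exact Y.mul_mem (Y.mul_mem c2 c1) c3
    · rintro x ⟨hx, hxY⟩
      refine ⟨R.inv_mem hx, fun y hy => ?_⟩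
      have hy1 : x⁻¹ * y * x ∈ Q := cm' (tw.hRQ hx) hy
      have c := hxY _ hy1
      have e : x⁻¹ * y * x⁻¹⁻¹ * y⁻¹ = (x * (x⁻¹ * y * x) * x⁻¹ * (x⁻¹ * y * x)⁻¹)⁻¹ := by group
      rw [e]; exact Y.inv_mem c
  have hCRY : cz R Q ≤ RY := by
    intro c hc
    rw [mem_cz] at hc
    rw [hRY]
    refine ⟨hc.1, fun y hy => ?_⟩
    have e : c * y * c⁻¹ * y⁻¹ = 1 := by
      rw [← hc.2 y hy]; group
    rw [e]; exact Y.one_mem
  have hRYR : RY ≤ R := fun x hx => ((hRY x).mp hx).1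
  have hRYn : ∀ x ∈ R, ∀ g ∈ RY, x * g * x⁻¹ ∈ RY := by
    intro x hx g hg
    have e : x * g * x⁻¹ = (x * g * x⁻¹ * g⁻¹) * g := by group
    rw [e]
    exact RY.mul_mem (hCRY (hRR x hx g (hRYR hg))) hg
  have hconj : ∀ g, g ∈ Subgroup.normalizer (Y : Set Γ) → g ∈ Subgroup.normalizer (Q : Set Γ) →
      g ∈ Subgroup.normalizer (R : Set Γ) → ∀ x ∈ RY, g * x * g⁻¹ ∈ RY := by
    intro g hgY hgQ hgR x hx
    rw [hRY] at hx ⊢
    refine ⟨cm hgR hx.1, fun y hy => ?_⟩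
    have hy2 : g⁻¹ * y * g ∈ Q := cm' hgQ hy
    have c := hx.2 _ hy2
    have e : g * x * g⁻¹ * y * (g * x * g⁻¹)⁻¹ * y⁻¹
        = g * (x * (g⁻¹ * y * g) * x⁻¹ * (g⁻¹ * y * g)⁻¹) * g⁻¹ := by group
    rw [e]
    exact cm hgY c
  have htinvRY : t⁻¹ ∈ Subgroup.normalizer (RY : Set Γ) := by
    rw [Subgroup.mem_normalizer_iff]
    intro x
    constructor
    · intro hx
      exact hconj t⁻¹ (Subgroup.inv_mem _ htY) (Subgroup.inv_mem _ htQn)
        (Subgroup.inv_mem _ htRn) x hx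
    · intro hx
      have h := hconj t htY htQn htRn _ hx
      have e : t * (t⁻¹ * x * t⁻¹⁻¹) * t⁻¹ = x := by group
      rwa [e] at h
  have hg : ∀ x ∈ R, (t⁻¹ * x⁻¹ * t) * x ∈ RY := by
    intro x hx
    obtain ⟨Y', hY'⟩ : ∃ Y' : Subgroup Γ, Y' = Y.map (MulAut.conj x).toMonoidHom := ⟨_, rfl⟩
    have hmemY' : ∀ z, z ∈ Y' ↔ x⁻¹ * z * x ∈ Y := by
      intro z
      rw [hY', Subgroup.mem_map]
      constructor
      · rintro ⟨y, hy, rfl⟩
        simp only [MulEquiv.toMonoidHom_eq_coe, MonoidHom.coe_coe, MulAut.conj_apply]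
        have e : x⁻¹ * (x * y * x⁻¹) * x = y := by group
        rw [e]; exact hy
      · intro hz
        refine ⟨x⁻¹ * z * x, hz, ?_⟩
        simp only [MulEquiv.toMonoidHom_eq_coe, MonoidHom.coe_coe, MulAut.conj_apply]
        group
    have hxQ := tw.hRQ hx
    have hY'Q : Y' ≤ Q := by
      intro z hz
      have h := hYQ ((hmemY' z).mp hz)
      have h' := cm hxQ h
      have e : x * (x⁻¹ * z * x) * x⁻¹ = z := by group
      rwa [e] at h'
    have hcard' : Nat.card Q = q * Nat.card Y' := by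
      rw [hcard, hY']
      congr 1
      exact (Nat.card_congr (Y.equivMapOfInjective _ (MulAut.conj x).injective).toEquiv)
    have hv' : ∃ v' ∈ V, v' ≠ 1 ∧ ∀ y ∈ Y', y * v' = v' * y := by
      refine ⟨x * v * x⁻¹, cm (tw.hRV hx) hvV, ?_, ?_⟩
      · intro h
        apply hv1
        have e : v = x⁻¹ * (x * v * x⁻¹) * x := by group
        rw [e, h]; group
      · intro y hy
        have c := hvY _ ((hmemY' y).mp hy)
        calc y * (x * v * x⁻¹) = x * ((x⁻¹ * y * x) * v) * x⁻¹ := by group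
          _ = x * (v * (x⁻¹ * y * x)) * x⁻¹ := by rw [c]
          _ = x * v * x⁻¹ * y := by group
    obtain ⟨t', ht'A, ht't₀, -, ht'Q, -⟩ := h3 Γ p ℓ q A F Q V Y' tw.frob hq tw.hVc tw.hAV
      tw.hQV tw.hAQ hQab hY'Q hcard' hcAV hcQV hcAQ tw.hE1 tw.hfixV hCQF hv' t₀ ht₀A ht₀F
    have htt' : t⁻¹ * t' ∈ F := by
      have e : t⁻¹ * t' = (t₀⁻¹ * t)⁻¹ * (t₀⁻¹ * t') := by group
      rw [e]; exact F.mul_mem (F.inv_mem htt₀) ht't₀
    have hkey := h1 Γ p ℓ r q s A F V Q R tw hI hQab Y hYQ t htA htF htQ x hx t' ht'A htt'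
      (fun y hy => (hmemY' _).mp (ht'Q y hy))
    rw [hRY]
    exact ⟨R.mul_mem (cm' htRn (R.inv_mem hx)) hx, hkey⟩
  have hlang := h4 Γ s ℓ R (cz R Q) RY t⁻¹ hs tw.hRs ((Nat.coprime_primes hℓ hs).mpr tw.hℓs)
    (by rw [inv_pow, ← hord t htA htF, pow_orderOf_eq_one, inv_one])
    (Subgroup.inv_mem _ htRn) htinvRY hCRY hRYR hRR
    (hfpfT hI t⁻¹ (A.inv_mem htA) (fun h => htF (by simpa using F.inv_mem h)))
  have hall : ∀ x ∈ R, x ∈ RY := by
    intro x hx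
    have hx' := hlang x⁻¹ (R.inv_mem hx) (by
      have e : x⁻¹⁻¹ * (t⁻¹ * x⁻¹ * t⁻¹⁻¹) = x * ((t⁻¹ * x⁻¹ * t) * x) * x⁻¹ := by group
      rw [e]
      exact hRYn x hx _ (hg x hx))
    simpa using RY.inv_mem hx'
  have hQY : Q ≤ Y := by
    have hle : ⁅Q, R⁆ ≤ Y := by
      rw [Subgroup.commutator_le]
      intro y hy x hx
      have c := ((hRY x).mp (hall x hx)).2 y hy
      have e : ⁅y, x⁆ = (x * y * x⁻¹ * y⁻¹)⁻¹ := by
        rw [commutatorElement_def]; group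
      rw [e]; exact Y.inv_mem c
    rw [tw.hE5] at hle
    exact hle
  have hYeq : Y = Q := le_antisymm hYQ hQY
  rw [hYeq] at hcard
  have hpos : 0 < Nat.card Q := Nat.card_pos
  have h1q : q * Nat.card Q = 1 * Nat.card Q := by rw [one_mul]; exact hcard.symm
  exact hq.one_lt.ne' (Nat.eq_of_mul_eq_mul_right hpos h1q)

end Cfsg.Agent.Lib.Helper81.PQ
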